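import Cfsg.Agent.H7.Components
import Cfsg.Agent.H7.Asch.Gen
import Cfsg.Agent.H3.CharInt

/-!
# Non-abelian simple subgroups and involutions
-/

set_option autoImplicit false

namespace Cfsg.Agent.H7.ON

open Subgroup H5 Asch
open scoped Pointwise

variable {G : Type*} [Group G]

/-- The conjugate `g T g⁻¹`. -/
def cj (g : G) (T : Subgroup G) : Subgroup G := MulAut.conj g • T

/-- The centralizer of a subgroup. -/
abbrev cz (T : Subgroup G) : Subgroup G := centralizer (T : Set G)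

section cj

variable {g h a b : G} {T S : Subgroup G}

theorem mem_cj : a ∈ cj g T ↔ g⁻¹ * a * g ∈ T := mem_conj_smul

theorem conj_mem_cj : g * a * g⁻¹ ∈ cj g T ↔ a ∈ T := by simp [mem_cj, mul_assoc]

theorem cj_cj : cj g (cj h T) = cj (g * h) T := by ext; simp [mem_cj, mul_assoc]

theorem cj_one : cj (1 : G) T = T := by ext; simp [mem_cj]

theorem cj_inv_cj : cj g⁻¹ (cj g T) = T := by rw [cj_cj, inv_mul_cancel, cj_one]

theorem cj_cj_inv : cj g (cj g⁻¹ T) = T := by rw [cj_cj, mul_inv_cancel, cj_one]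

theorem cj_inj : cj g T = cj g S ↔ T = S :=
  ⟨fun h => by rw [← cj_inv_cj (g := g) (T := T), h, cj_inv_cj], fun h => h ▸ rfl⟩

theorem cj_inf : cj g (T ⊓ S) = cj g T ⊓ cj g S := by ext; simp [mem_cj]

theorem cj_le_cj : cj g T ≤ cj g S ↔ T ≤ S :=
  ⟨fun h _ ha => conj_mem_cj.1 (h (conj_mem_cj.2 ha)), fun h _ ha => mem_cj.2 (h (mem_cj.1 ha))⟩

theorem card_cj : Nat.card (cj g T) = Nat.card T :=
  (Nat.card_congr (T.equivSMul (MulAut.conj g)).toEquiv).symm

theorem cj_eq_iff : cj g T = T ↔ g ∈ normalizer (T : Set G) := conj_smul_eq_iff_mem_normalizer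

theorem cj_of_mem (h : g ∈ T) : cj g T = T := cj_eq_iff.2 (le_normalizer h)

theorem cj_of_cz (h : g ∈ cz T) : cj g T = T := cj_eq_iff.2 (centralizer_le_normalizer _ h)

theorem conj_mem_of_cj (h : cj g T = T) (ha : a ∈ T) : g * a * g⁻¹ ∈ T := h ▸ conj_mem_cj.2 ha

theorem cj_inv_of_cj (h : cj g T = T) : cj g⁻¹ T = T := by
  nth_rewrite 1 [← h]
  exact cj_inv_cj

theorem cj_mul_of_cj (h1 : cj g T = T) (h2 : cj h T = T) : cj (g * h) T = T := by
  rw [← cj_cj, h2, h1]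

theorem mem_cz : g ∈ cz T ↔ ∀ a ∈ T, a * g = g * a := mem_centralizer_iff

theorem le_cz_comm : T ≤ cz S ↔ S ≤ cz T := le_centralizer_iff

theorem conj_mem_cz_cj : g * a * g⁻¹ ∈ cz (cj g T) ↔ a ∈ cz T := by
  refine ⟨fun h => mem_cz.2 fun b hb => ?_, fun h => mem_cz.2 fun b hb => ?_⟩
  · simpa [mul_assoc] using comm_conj (g := g⁻¹) (mem_cz.1 h _ (conj_mem_cj.2 hb))
  · simpa [mul_assoc] using comm_conj (g := g) (mem_cz.1 h _ (mem_cj.1 hb))

theorem mul_mem_cz_iff (hb : b ∈ cz T) : a * b ∈ cz T ↔ a ∈ cz T := (cz T).mul_mem_cancel_right hb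

theorem mul_mem_cz_iff' (ha : a ∈ cz T) : a * b ∈ cz T ↔ b ∈ cz T := (cz T).mul_mem_cancel_left ha

end cj

/-- Two involutions are conjugate in the group they generate or there is a central involution. -/
theorem dih [Finite G] {H : Subgroup G} {a s : G} (ha : a * a = 1) (hs : s * s = 1) (aH : a ∈ H)
    (sH : s ∈ H) : (∃ g ∈ H, g * s * g⁻¹ = a) ∨ ∃ z ∈ H, z ≠ 1 ∧ z * z = 1 ∧ z * a = a * z ∧
      z * s = s * z ∧ (((∃ g ∈ H, g * a * g⁻¹ = z * a) ∧ ∃ g ∈ H, g * s * g⁻¹ = z * s) ∨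
        ((∃ g ∈ H, g * s * g⁻¹ = z * a) ∧ ∃ g ∈ H, g * a * g⁻¹ = z * s)) := by
  have m : ∀ k : ℕ, (a * s) ^ k ∈ H := fun k => H.pow_mem (H.mul_mem aH sH) k
  have key : ∀ x : G, x * (a * s) * x⁻¹ = (a * s)⁻¹ → ∀ j : ℕ,
      (a * s) ^ j * x * ((a * s) ^ j)⁻¹ = (a * s) ^ (j + j) * x := fun x hx j => by
    have : x * ((a * s) ^ j)⁻¹ * x⁻¹ = (a * s) ^ j := by
      rw [← inv_pow, ← conj_pow, show x * (a * s)⁻¹ * x⁻¹ = (x * (a * s) * x⁻¹)⁻¹ by group, hx, inv_inv]
    rw [pow_add, mul_assoc _ _ x]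
    nth_rewrite 4 [← this]
    group
  have ai : a⁻¹ = a := inv_eq_of_mul_eq_one_left ha
  have si : s⁻¹ = s := inv_eq_of_mul_eq_one_left hs
  have ia : a * (a * s) * a⁻¹ = (a * s)⁻¹ := by rw [← mul_assoc, ha, one_mul, mul_inv_rev, si]
  have is : s * (a * s) * s⁻¹ = (a * s)⁻¹ := by rw [mul_inv_rev, ai, si, ← mul_assoc, mul_assoc, hs, mul_one]
  rcases conj_or_central ha hs with ⟨-, k, hk⟩ | ⟨k, h1, h2, h3, h4⟩
  · exact Or.inl ⟨_, m k, hk⟩
  refine Or.inr ⟨_, m k, h1, h2, h3, h4, ?_⟩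
  rcases Nat.even_or_odd' k with ⟨j, rfl | rfl⟩
  · exact Or.inl ⟨⟨_, m j, by rw [key a ia, two_mul]⟩, _, m j, by rw [key s is, two_mul]⟩
  · refine Or.inr ⟨⟨_, H.mul_mem (m j) aH, ?_⟩, _, m j, ?_⟩
    · have := key (a * s * a⁻¹) (by
        calc _ = a * (s * (a⁻¹ * (a * s) * a) * s⁻¹) * a⁻¹ := by group
          _ = _ := by simp only [mul_inv_rev, ai, si, ← mul_assoc, ha, hs, one_mul]) j
      calc _ = (a * s) ^ j * (a * s * a⁻¹) * ((a * s) ^ j)⁻¹ := by simp only [mul_inv_rev, mul_assoc]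
        _ = _ := by rw [this, pow_succ, two_mul, mul_assoc, ai, mul_assoc, mul_assoc]
    · rw [key a ia, pow_succ, two_mul, mul_assoc, mul_assoc, hs, mul_one]

theorem exists_inv_comm [Finite G] {H : Subgroup G} {z : G} (hz : z * z = 1) (hn : cj z H = H)
    (he : Even (Nat.card H)) : ∃ s ∈ H, s ≠ 1 ∧ s * s = 1 ∧ z * s = s * z := by
  classical
  have := Fintype.ofFinite H
  let f : Function.End H := fun x => ⟨z * x * z⁻¹, conj_mem_of_cj hn x.2⟩
  have h1 := Equiv.Perm.card_fixedPoints_modEq (f := f) (p := 2) (n := 1) (by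
    funext x
    apply Subtype.ext
    change z * (z * x * z⁻¹) * z⁻¹ = x
    calc _ = z * z * x * (z * z)⁻¹ := by group
      _ = _ := by rw [hz]; group)
  have e : f.fixedPoints ≃ ↥(H ⊓ centralizer {z}) :=
    ⟨fun x => ⟨x.1, x.1.2, mem_centralizer_singleton_iff.2
      (conj_eq_iff_comm.1 (congrArg Subtype.val x.2)).symm⟩,
      fun x => ⟨⟨x, x.2.1⟩, Subtype.ext (conj_eq_iff_comm.2 (mem_centralizer_singleton_iff.1 x.2.2).symm)⟩,
      fun _ => rfl, fun _ => rfl⟩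
  rw [← Nat.card_eq_fintype_card, ← Nat.card_eq_fintype_card, Nat.card_congr e] at h1
  obtain ⟨s, hs, s1, s2⟩ := exists_involution_of_even (H := H ⊓ centralizer {z})
    (by rw [Nat.even_iff] at he ⊢; exact Eq.trans h1.symm he)
  exact ⟨s, hs.1, s1, s2, (mem_centralizer_singleton_iff.1 hs.2).symm⟩

/-- A non-abelian simple subgroup of even order. -/
structure SN (T : Subgroup G) : Prop where
  norm : ∀ K : Subgroup G, (∀ g ∈ T, cj g K = K) → ∀ a ∈ T, a ∈ K → a ≠ 1 → T ≤ K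
  nab : ¬ T ≤ cz T
  even : Even (Nat.card T)

namespace SN

variable {T : Subgroup G} (h : SN T)
include h

theorem cen {a : G} (ha : a ∈ T) (hc : a ∈ cz T) : a = 1 := by
  by_contra h1
  exact h.nab (h.norm _ (fun g hg => cj_eq_iff.2
    (normalizer_le_normalizer_centralizer T (le_normalizer hg))) a ha hc h1)

theorem conj (g : G) : SN (cj g T) := by
  refine ⟨fun K hK a ha haK h1 => ?_, fun h' => h.nab fun a ha => ?_, card_cj (T := T) ▸ h.even⟩
  · rw [← cj_cj_inv (g := g) (T := K), cj_le_cj]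
    refine h.norm _ (fun x hx => ?_) _ (mem_cj.1 ha) (by simpa [mem_cj, mul_assoc] using haK)
      (by simpa [mul_assoc] using (MulAut.conj g⁻¹).map_ne_one_iff.2 h1)
    rw [← cj_inj (g := g), cj_cj, cj_cj, cj_cj_inv]
    exact hK _ (conj_mem_cj.2 hx)
  · exact conj_mem_cz_cj.1 (h' (conj_mem_cj.2 ha))

theorem exists_ne_one : ∃ a ∈ T, a ≠ 1 := by
  by_contra hn
  push Not at hn
  exact h.nab fun a ha => hn a ha ▸ one_mem _

theorem simple : IsSimpleGroup T := by
  obtain ⟨a, ha, a1⟩ := h.exists_ne_one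
  have : Nontrivial T := ⟨⟨⟨a, ha⟩, 1, fun e => a1 (congrArg Subtype.val e)⟩⟩
  refine ⟨fun N hN => (N.bot_or_exists_ne_one).imp id ?_⟩
  rintro ⟨b, hb, b1⟩
  have := h.norm _ (fun g hg => cj_eq_iff.2 ((NormalIn.map_subtype hN).2 hg)) b b.2 ⟨b, hb, rfl⟩
    fun e => b1 (Subtype.ext e)
  exact eq_top_iff.2 fun x _ => (mem_map_iff_mem T.subtype_injective).1 (this x.2)

theorem hom_trivial {f : G → G} (hf : ∀ a ∈ T, ∀ b ∈ T, f (a * b) = f a * f b)
    (hc : ∀ a ∈ T, ∀ b ∈ T, f a * f b = f b * f a) : ∀ a ∈ T, f a = 1 := by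
  let φ : T →* G := MonoidHom.mk' (fun a => f a) fun a b => hf a a.2 b b.2
  rcases h.simple.eq_bot_or_eq_top_of_normal φ.ker inferInstance with e | e
  · refine absurd (fun a ha => mem_cz.2 fun b hb => ?_) h.nab
    exact congrArg Subtype.val ((MonoidHom.ker_eq_bot_iff φ).1 e
      (show φ (⟨b, hb⟩ * ⟨a, ha⟩) = φ (⟨a, ha⟩ * ⟨b, hb⟩) by
        rw [map_mul, map_mul]; exact hc b hb a ha))
  · exact fun a ha => (e ▸ mem_top _ : (⟨a, ha⟩ : T) ∈ φ.ker)

variable [Finite G]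

theorem exists_inv : ∃ t ∈ T, t ≠ 1 ∧ t * t = 1 := exists_involution_of_even h.even

theorem le_of_inv {K : Subgroup G} (hK : ∀ t ∈ T, t * t = 1 → t ∈ K) : T ≤ K := by
  obtain ⟨t, ht, t1, t2⟩ := h.exists_inv
  refine (h.norm (closure {t | t ∈ T ∧ t * t = 1}) (fun g hg => cj_eq_iff.2
    (mem_normalizer_of_conj_mem fun x hx => ?_)) t ht (subset_closure ⟨ht, t2⟩) t1).trans
    ((closure_le _).2 fun x hx => hK x hx.1 hx.2)
  induction hx using closure_induction with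
  | mem x hx => exact subset_closure ⟨conj_mem_of_cj (cj_of_mem hg) hx.1, conj_mul_self_eq_one hx.2 g⟩
  | one => simp
  | mul x y _ _ h1 h2 => simpa [mul_assoc] using mul_mem h1 h2
  | inv x _ h1 => simpa [mul_assoc] using inv_mem h1

/-- The `Z*`-theorem for an involution acting on a simple group. -/
theorem zs {r : G} (r2 : r * r = 1) (hn : cj r T = T) (hr : r ∉ cz T) :
    ∃ g ∈ T, g * r * g⁻¹ ≠ r ∧ r * (g * r * g⁻¹) = g * r * g⁻¹ * r := by
  have ri : r⁻¹ = r := inv_eq_of_mul_eq_one_left r2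
  let K : Subgroup G :=
    { carrier := {g | g ∈ T ∨ g * r ∈ T}
      one_mem' := Or.inl T.one_mem
      mul_mem' := by
        rintro a b (ha | ha) (hb | hb)
        · exact Or.inl (T.mul_mem ha hb)
        · exact Or.inr (by simpa [mul_assoc] using T.mul_mem ha hb)
        · exact Or.inr (by
            simpa [mul_assoc, ri, ← mul_assoc r r, r2] using T.mul_mem ha (conj_mem_of_cj hn hb))
        · exact Or.inl (by
            simpa [mul_assoc, ← mul_assoc r r, r2] using T.mul_mem ha (conj_mem_of_cj hn hb))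
      inv_mem' := by
        rintro a (ha | ha)
        · exact Or.inl (T.inv_mem ha)
        · exact Or.inr (by simpa [mul_assoc, ri, ← mul_assoc r r, r2] using conj_mem_of_cj hn (T.inv_mem ha)) }
  have rK : r ∈ K := Or.inr (r2 ▸ T.one_mem)
  by_contra hcon
  push Not at hcon
  have hz := H3.zStar_of_isIsolated (t := (⟨r, rK⟩ : K)) (orderOf_eq_two_iff'.2
    ⟨fun e => hr ((show r = 1 from congrArg Subtype.val e) ▸ one_mem _), Subtype.ext r2⟩) (by
      rintro ⟨g, hg⟩ hc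
      have hc' : r * (g * r * g⁻¹) = g * r * g⁻¹ * r := congrArg Subtype.val hc.eq
      refine Subtype.ext ?_
      change g * r * g⁻¹ = r
      by_contra hne
      rcases hg with hg | hg
      · exact hcon g hg hne hc'
      · have e : g * r * r * (g * r)⁻¹ = g * r * g⁻¹ := by group
        exact hcon _ hg (e ▸ hne) (e ▸ hc'))
  have hn' : (pPrimeCore 2 K).Normal := by
    have := pPrimeCore_characteristic 2 K
    infer_instance
  refine hr (mem_cz.2 fun v hv => ?_)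
  by_contra hne
  have := card_dvd_of_le (h.norm _ (fun g hg => cj_eq_iff.2 ((NormalIn.map_subtype hn').2 (Or.inl hg)))
    (v * r * v⁻¹ * r⁻¹) (by simpa [mul_assoc] using T.mul_mem hv (conj_mem_of_cj hn (T.inv_mem hv)))
    ⟨_, hz ⟨v, Or.inl hv⟩, rfl⟩ fun e => hne (conj_eq_iff_comm.1 (mul_inv_eq_one.1 e)))
  rw [card_map_of_injective K.subtype_injective] at this
  exact Nat.not_even_iff_odd.2 (Nat.coprime_two_right.1 (pPrimeCore_coprime 2 K))
    (even_iff_two_dvd.2 (h.even.two_dvd.trans this))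

theorem four {t : G} (ht : t ∈ T) (t1 : t ≠ 1) (t2 : t * t = 1) :
    ∃ u ∈ T, u ≠ 1 ∧ u * u = 1 ∧ u ≠ t ∧ t * u = u * t := by
  obtain ⟨g, hg, h1, h2⟩ := h.zs t2 (cj_of_mem ht) fun hc => t1 (h.cen ht hc)
  exact ⟨_, conj_mem_of_cj (cj_of_mem hg) ht, Cj.ne_one ⟨g, rfl⟩ t1, conj_mul_self_eq_one t2 g, h1, h2⟩

theorem five_le {H : Subgroup G} (hH : ¬ T ≤ H) : 5 ≤ H.relIndex T := by
  by_contra h5
  have := h.simple
  rcases this.eq_bot_or_eq_top_of_normal (H.subgroupOf T).normalCore inferInstance with e | e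
  · have h1 : (H.subgroupOf T).normalCore.index ∣ 2 ^ 3 * 3 ^ 1 := by
      rw [normalCore_eq_ker, index_ker]
      refine (card_subgroup_dvd_card _).trans ?_
      rw [Nat.card_perm]
      exact Nat.factorial_dvd_factorial (n := 4) (show H.relIndex T ≤ 4 by omega)
    rw [e, index_bot] at h1
    have h2 := IsSimpleGroup.comm_iff_isSolvable.2
      (H3.isSolvable_of_card_dvd_prime_pow_mul (G := T) Nat.prime_two Nat.prime_three h1)
    exact h.nab fun a ha => mem_cz.2 fun b hb => congrArg Subtype.val (h2 ⟨b, hb⟩ ⟨a, ha⟩)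
  · exact hH (subgroupOf_eq_top.1 (top_le_iff.1 (e ▸ normalCore_le _)))

/-- An involutory automorphism of a simple group has more than two fixed points. -/
theorem not_two {t s : G} (t2 : t * t = 1) (hn : cj t T = T)
    (hs : ∀ b ∈ T, t * b = b * t → b = 1 ∨ b = s) : False := by
  classical
  have := Fintype.ofFinite G
  let F := Finset.univ.filter (· ∈ T)
  have mF : ∀ {a}, a ∈ F ↔ a ∈ T := fun {a} => by simp [F]
  have cF : F.card = Nat.card T := by rw [Nat.card_eq_fintype_card, Fintype.card_subtype]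
  let Q := F.image fun g => g * t * g⁻¹
  have h1 : F.card ≤ 2 * Q.card := Finset.card_le_mul_card_image _ _ fun p hp => by
    obtain ⟨g, hg, rfl⟩ := Finset.mem_image.1 hp
    refine (Finset.card_le_card fun k hk => ?_).trans (Finset.card_le_two (a := g) (b := g * s))
    obtain ⟨k1, k2⟩ := Finset.mem_filter.1 hk
    rcases hs (g⁻¹ * k) (T.mul_mem (T.inv_mem (mF.1 hg)) (mF.1 k1)) (by
      refine (conj_eq_iff_comm.1 ?_).symm
      calc _ = g⁻¹ * (k * t * k⁻¹) * g := by group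
        _ = t := by rw [k2]; group) with e | e
    · simp [inv_mul_eq_one.1 e]
    · simp [← e]
  have q2 : ∀ p ∈ Q, p * p = 1 := fun p hp => by
    obtain ⟨g, -, rfl⟩ := Finset.mem_image.1 hp
    exact conj_mul_self_eq_one t2 g
  have qm : ∀ p ∈ Q, ∀ q ∈ Q, p * q ∈ T := fun p hp q hq => by
    obtain ⟨g, hg, rfl⟩ := Finset.mem_image.1 hp
    obtain ⟨k, hk, rfl⟩ := Finset.mem_image.1 hq
    simpa [mul_assoc, inv_eq_of_mul_eq_one_left t2] using T.mul_mem (T.mul_mem (mF.1 hg)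
      (conj_mem_of_cj hn (T.mul_mem (T.inv_mem (mF.1 hg)) (mF.1 hk)))) (T.inv_mem (mF.1 hk))
  have h5 : ∀ σ ∈ T, σ ≠ 1 → 5 * Nat.card ↥(centralizer {σ} ⊓ T) ≤ F.card := fun σ hσ σ1 => by
    rw [cF, ← card_mul_relIndex (inf_le_right : centralizer {σ} ⊓ T ≤ T), mul_comm]
    refine Nat.mul_le_mul_left _ (h.five_le fun hle => σ1 (h.cen hσ (mem_cz.2 fun b hb => ?_)))
    exact mem_centralizer_singleton_iff.1 (hle hb).1
  have h2 : 5 * (Q ×ˢ Q).card ≤ 5 * Q.card + (F.card - 1) * F.card := by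
    rw [Finset.card_eq_sum_card_fiberwise (f := fun p => p.1 * p.2) (t := F) fun p hp =>
      mF.2 (qm _ (Finset.mem_product.1 hp).1 _ (Finset.mem_product.1 hp).2),
      ← Finset.add_sum_erase _ _ (mF.2 T.one_mem), mul_add, Finset.mul_sum,
      ← Finset.card_erase_of_mem (mF.2 T.one_mem), ← smul_eq_mul (F.erase 1).card]
    refine add_le_add (Nat.mul_le_mul_left _ (Finset.card_le_card_of_injOn Prod.fst
      (fun p hp => (Finset.mem_product.1 (Finset.mem_filter.1 hp).1).1) fun p hp q hq e => ?_))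
      (Finset.sum_le_card_nsmul _ _ _ fun σ hσ => ?_)
    · exact Prod.ext e (mul_left_cancel (a := p.1)
        ((Finset.mem_filter.1 hp).2.trans (e ▸ (Finset.mem_filter.1 hq).2.symm)))
    · obtain ⟨σ1, hσ⟩ := Finset.mem_erase.1 hσ
      refine le_trans (Nat.mul_le_mul_left _ ?_) (h5 σ (mF.1 hσ) σ1)
      rcases Finset.eq_empty_or_nonempty ((Q ×ˢ Q).filter fun p => p.1 * p.2 = σ) with e | ⟨p0, hp0⟩
      · simp [e]
      have iv : ∀ p ∈ (Q ×ˢ Q).filter fun p => p.1 * p.2 = σ, p.1 ∈ Q ∧ p.1 * σ * p.1⁻¹ = σ⁻¹ :=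
        fun p hp => by
          obtain ⟨hp', e⟩ := Finset.mem_filter.1 hp
          obtain ⟨a1, a2⟩ := Finset.mem_product.1 hp'
          exact ⟨a1, by rw [← e, ← mul_assoc, q2 _ a1, one_mul, mul_inv_rev, inv_eq_of_mul_eq_one_left (q2 _ a2)]⟩
      rw [Nat.card_eq_fintype_card, Fintype.card_subtype]
      refine Finset.card_le_card_of_injOn (fun p => p0.1 * p.1) (fun p hp => ?_) fun p hp q hq e => ?_
      · refine Finset.mem_filter.2 ⟨Finset.mem_univ _, mem_centralizer_singleton_iff.2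
          (conj_eq_iff_comm.1 ?_), qm _ (iv _ hp0).1 _ (iv _ hp).1⟩
        calc _ = p0.1 * (p.1 * σ * p.1⁻¹) * p0.1⁻¹ := by group
          _ = (p0.1 * σ * p0.1⁻¹)⁻¹ := by rw [(iv _ hp).2]; group
          _ = σ := by rw [(iv _ hp0).2, inv_inv]
      · have e' := mul_left_cancel e
        exact Prod.ext e' (mul_left_cancel (a := p.1)
          ((Finset.mem_filter.1 hp).2.trans (e' ▸ (Finset.mem_filter.1 hq).2.symm)))
  obtain ⟨a, ha, a1⟩ := h.exists_ne_one
  have h3 := h5 a ha a1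
  have h4 : 1 < Nat.card ↥(centralizer {a} ⊓ T) := (one_lt_card_iff_ne_bot _).2 fun e =>
    a1 (mem_bot.1 (e ▸ ⟨mem_centralizer_singleton_iff.2 rfl, ha⟩))
  rw [Finset.card_product] at h2
  obtain ⟨n, hn⟩ : ∃ n, F.card = n + 1 := ⟨F.card - 1, by omega⟩
  rw [hn] at h1 h2 h3
  simp only [Nat.add_sub_cancel] at h2
  nlinarith

end SN

end Cfsg.Agent.H7.ON
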