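import Cfsg.Agent.H7.ON.TI

/-!
# The case of two normal components
-/

set_option autoImplicit false

namespace Cfsg.Agent.H7.ON

open Subgroup H5 Asch MulAction

variable {G Ω : Type*} [Group G] [MulAction G Ω] [Finite G]

theorem SN.fix_of {U : Subgroup G} (hU : SN U) {s : Set Ω} (hs : ∀ g ∈ U, ∀ v ∈ s, g • v ∈ s) {u : G}
    (hu : u ∈ U) (u1 : u ≠ 1) (h : ∀ v ∈ s, u • v = v) : ∀ g ∈ U, ∀ v ∈ s, g • v = v := fun g hg =>
  (mem_fixingSubgroup_iff G).1 (hU.norm (fixingSubgroup G s) (fun k hk => cj_eq_iff.2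
    (mem_normalizer_of_conj_mem fun a ha => (mem_fixingSubgroup_iff G).2 fun v hv => by
      rw [mul_smul, mul_smul, (mem_fixingSubgroup_iff G).1 ha _ (hs _ (U.inv_mem hk) v hv), smul_inv_smul]))
    u hu ((mem_fixingSubgroup_iff G).2 h) u1 hg)

namespace Fam

variable {F : Fam G Ω} {x y v w p q : Ω} {L : Subgroup G} {a b c g s : G} {A B : Ω → Subgroup G}

section N

variable (hA : ∀ x, A x ∈ F.C x) (eA : ∀ (g : G) x, cj g (A x) = A (g • x))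
include hA eA

theorem n_moves (h : x ≠ y) : ∃ a ∈ A x, a • y ≠ y := by
  obtain ⟨a, ha, w, hw⟩ := F.moves (hA x)
  obtain ⟨g, g1, rfl⟩ := F.tr (x := x) (y := w) (fun e => hw (e ▸ F.fix (hA x) ha)) h
  exact ⟨_, g1 ▸ eA g x ▸ conj_mem_cj.2 ha, by simpa [mul_smul] using hw⟩

theorem n_line (hxy : x ≠ y) (hvw : v ≠ w) (h1 : A x ⊓ A y ≤ A v) (h2 : A x ⊓ A y ≤ A w) :
    A x ⊓ A y = A v ⊓ A w := by
  obtain ⟨g, rfl, rfl⟩ := F.tr hxy hvw
  exact eq_of_le_of_card_ge (le_inf h1 h2) (by rw [← eA, ← eA, ← cj_inf, card_cj])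

variable (hB : ∀ x, B x ∈ F.C x) (eB : ∀ (g : G) x, cj g (B x) = B (g • x)) (hAB : ∀ x, A x ≠ B x)
include hB hAB

omit [Finite G] in
theorem n_cen (hb : b ∈ B x) (h1 : L ≤ A x) (h2 : L ≤ A v) : L ≤ A (b • v) := by
  rw [← eA, ← cj_of_cz (g := b) (T := L) (centralizer_le h1 (F.cm (hB x) (hA x) (hAB x).symm hb))]
  exact cj_le_cj.2 h2

include eB

theorem n_faith (hxy : x ≠ y) (hb : b ∈ B x) (h : ∀ v, A x ⊓ A y ≤ A v → b • v = v) : b = 1 := by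
  by_contra b1
  obtain ⟨c, hc, hcy⟩ := n_moves hB eB hxy
  exact hcy ((F.sn (hB x)).fix_of (s := {v | A x ⊓ A y ≤ A v})
    (fun g hg v hv => n_cen hA eA hB hAB hg inf_le_left hv) hb b1 h c hc y (inf_le_right : A x ⊓ A y ≤ A y))

variable (h0 : ∀ {x y}, x ≠ y → ∃ a ∈ A x ⊓ A y, a ≠ 1)
include h0

theorem n_ti (hxy : x ≠ y) (hb : b ∈ B x) (hb' : b ∈ B y) : b = 1 := by
  obtain ⟨a, ha, a1⟩ := h0 hxy
  obtain ⟨w, hw⟩ : ∃ w : Ω, a • w ≠ w := by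
    by_contra h
    exact a1 (F.fa a fun w => by_contra fun h' => h ⟨w, h'⟩)
  have hw' : ¬ A x ⊓ A y ≤ A w := fun h => hw (F.fix (hA w) (h ha))
  have hxw : x ≠ w := fun e => hw' (e ▸ inf_le_left)
  refine n_faith hA eA hB eB hAB hxw hb fun v hv => by_contra fun hne => hw' ?_
  have hxv : x ≠ v := fun e => hne (e ▸ F.fix (hB x) hb)
  have hyv : y ≠ v := fun e => hne (e ▸ F.fix (hB y) hb')
  have h1 := n_line hA eA hxv hne (n_cen hA eA hB hAB hb inf_le_left inf_le_right) inf_le_right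
  have h2 := n_line hA eA hyv hne (n_cen hA eA hB hAB hb' inf_le_left inf_le_right) inf_le_right
  rw [← n_line hA eA hxv hxy inf_le_left ((h1.trans h2.symm).le.trans inf_le_left),
    ← n_line hA eA hxw hxv inf_le_left hv]
  exact inf_le_right

theorem n_sr (hb : b ∈ B x) (b1 : b ≠ 1) (hy : b • y = y) : x = y := by
  by_contra hxy
  obtain ⟨a, ha, hay⟩ : ∃ a ∈ A x, ¬ A x ⊓ A y ≤ A (a • y) := by
    by_contra hn
    push Not at hn
    obtain ⟨c, hc, c1⟩ := h0 hxy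
    obtain ⟨d, hd, hdy⟩ := n_moves hA eA hxy
    refine hdy (F.fix (hA y) ((F.sn (hA x)).norm (A x ⊓ A y) (fun g hg => ?_) c hc.1 hc c1 hd).2)
    refine (eq_of_le_of_card_ge ?_ card_cj.le).symm
    rw [cj_inf, cj_of_mem hg, eA]
    exact le_inf inf_le_left (hn g hg)
  have h1 : y ≠ a • y := fun e => hay (e ▸ inf_le_right)
  have h2 := smul_eq_of_comm (mem_cz.1 (F.cm (hB x) (hA x) (hAB x).symm hb) a ha).symm hy
  have h3 : ¬ A y ⊓ A (a • y) ≤ A x := fun h => hay (n_line hA eA h1 hxy h inf_le_left ▸ inf_le_right)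
  have h4 : ∀ v, A y ⊓ A (a • y) ≤ A v → b • v = v := fun v hv => by_contra fun hne => h3 (by
    have hxv : x ≠ v := fun e => h3 (e ▸ hv)
    have h5 : A y ⊓ A (a • y) ≤ A (b • v) := by
      rw [← eA b v, ← cj_le_cj (g := b⁻¹), cj_inv_cj, cj_inf, eA, eA, inv_smul_eq_iff.2 hy.symm,
        inv_smul_eq_iff.2 h2.symm]
      exact hv
    rw [n_line hA eA h1 hne h5 hv,
      ← n_line hA eA hxv hne (n_cen hA eA hB hAB hb inf_le_left inf_le_right) inf_le_right]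
    exact inf_le_left)
  obtain ⟨c, hc, hcx⟩ := n_moves hB eB (Ne.symm hxy)
  have h5 : b⁻¹ * c⁻¹ * b * c = 1 := n_faith hA eA hB eB hAB h1 (mul_mem
    (mem_cj.1 ((hy ▸ eB b y).ge (inv_mem hc))) hc) fun v hv => by
      rw [mul_smul, mul_smul, mul_smul, h4 _ (n_cen hA eA hB hAB hc inf_le_left hv), inv_smul_smul,
        inv_smul_eq_iff, h4 v hv]
  refine b1 (n_ti hA eA hB eB hAB h0 hcx ?_ hb)
  rw [← eB, mem_cj, ← mul_inv_cancel_left b (c⁻¹ * b * c), ← mul_assoc b⁻¹, ← mul_assoc b⁻¹, h5, mul_one]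
  exact hb

theorem n_mem (hs : s ∈ B y) (s1 : s ≠ 1) (hc : c ∈ A q) (h : s * c = c * s) : c ∈ A y := by
  by_cases e : y = q
  · rwa [e]
  have h1 : s • q ≠ q := fun h => e (n_sr hA eA hB eB hAB h0 hs s1 h)
  refine (n_line hA eA e h1 (n_cen hA eA hB hAB hs inf_le_left inf_le_right) inf_le_right).ge.trans
    inf_le_left ⟨?_, hc⟩
  rw [← eA, ← conj_eq_iff_comm.2 h]
  exact conj_mem_cj.2 hc

theorem n_false (x : Ω) : False := by
  have sr := fun {x y b} => n_sr hA eA hB eB hAB h0 (x := x) (y := y) (b := b)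
  have cf : ∀ {y s g}, s ∈ B y → s ≠ 1 → s * g = g * s → g • y = y := fun hs s1 h =>
    (sr hs s1 (smul_eq_of_comm h (F.fix (hB _) hs))).symm
  have mB : ∀ {y s g x}, s ∈ B y → s ≠ 1 → (g * s * g⁻¹) • x = x → g * s * g⁻¹ ∈ B x :=
    fun {y s g x} hs s1 h => by
      have h1 : g * s * g⁻¹ ∈ B (g • y) := eB g y ▸ conj_mem_cj.2 hs
      rwa [← sr h1 (Cj.ne_one ⟨g, rfl⟩ s1) h]
  have cA : ∀ {x a} (g : G), a ∈ A x → g * a * g⁻¹ ∈ A (g • x) := fun g ha => eA g _ ▸ conj_mem_cj.2 ha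
  obtain ⟨a0, h1, y, hy⟩ := F.moves (hA x)
  obtain ⟨a, ha, a2, hay⟩ : ∃ a ∈ A x, a * a = 1 ∧ a • y ≠ y := by
    by_contra hn
    exact hy ((F.sn (hA x)).le_of_inv (K := stabilizer G y)
      (fun t ht t2 => by_contra fun h => hn ⟨t, ht, t2, h⟩) h1)
  have a1 : a ≠ 1 := fun e => hay (by simp [e])
  obtain ⟨s, hs, s1, s2⟩ := (F.sn (hB y)).exists_inv
  rcases dih (H := ⊤) a2 s2 trivial trivial with ⟨g, -, e⟩ |
    ⟨z, -, z1, z2, z3, z4, ⟨-, g, -, e⟩ | ⟨⟨g, -, e⟩, k, -, e'⟩⟩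
  · exact a1 (F.disj (hA x) (hB x) (hAB x) ha (e ▸ mB hs s1 (e ▸ F.fix (hA x) ha)))
  · have h2 : z * s ∈ B y := e ▸ mB hs s1 (by rw [e, mul_smul, F.fix (hB y) hs, cf hs s1 z4.symm])
    exact hay (cf (((B y).mul_mem_cancel_right hs).1 h2) z1 z3)
  have h2 : z * a ∈ B (g • y) := e ▸ eB g y ▸ conj_mem_cj.2 hs
  have h3 : z * a ≠ 1 := Cj.ne_one ⟨g, e⟩ s1
  have h4 : g • y ≠ y := fun h => hay (cf (h ▸ h2) h3 (by rw [← mul_assoc, z3]))
  have h5 : z * s ∈ A y := n_mem hA eA hB eB hAB h0 hs s1 (e' ▸ cA k ha) (by rw [← mul_assoc, z4])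
  obtain ⟨r, hr, r1, r2, r3, r4⟩ := (F.sn (hB y)).four hs s1 s2
  have h6 : r * z = z * r := by
    have := mem_cz.1 (F.cm (hB y) (hA y) (hAB y).symm hr) _ h5
    rw [mul_assoc, r4, ← mul_assoc, ← mul_assoc] at this
    exact (mul_right_cancel this).symm
  rcases dih (H := centralizer {z}) r2 (e ▸ conj_mul_self_eq_one s2 g : z * a * (z * a) = 1)
    (mem_centralizer_singleton_iff.2 h6) (mem_centralizer_singleton_iff.2 (by rw [mul_assoc, z3])) with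
    ⟨l, hl, e1⟩ | ⟨u, -, u1, -, u3, u4, h⟩
  · have h7 : l * a * l⁻¹ = z * r := by
      rw [← e1]
      nth_rewrite 1 [← conj_eq_iff_comm.2 (mem_centralizer_singleton_iff.1 hl)]
      simp only [mul_assoc, inv_mul_cancel_left]
      rw [← mul_assoc z, z2, one_mul]
    have h8 : z * r ∈ A y := n_mem hA eA hB eB hAB h0 hs s1 (h7 ▸ cA l ha)
      (by rw [← mul_assoc, ← z4, mul_assoc, r4, mul_assoc])
    refine r3 (inv_mul_eq_one.1 (F.disj (hA y) (hB y) (hAB y) ?_ (mul_mem (inv_mem hs) hr))).symm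
    simpa [mul_assoc] using mul_mem (inv_mem h5) h8
  · have h7 : (u * r) • y = y := by rw [mul_smul, F.fix (hB y) hr, cf hr r1 u3.symm]
    have h8 : u * r ∈ B y := by
      rcases h with ⟨⟨l, -, e1⟩, -⟩ | ⟨⟨l, -, e1⟩, -⟩
      exacts [e1 ▸ mB hr r1 (e1 ▸ h7), e1 ▸ mB h2 h3 (e1 ▸ h7)]
    exact h4 (sr (((B y).mul_mem_cancel_right hr).1 h8) u1 (cf h2 h3 u4.symm)).symm

end N

/-- The case of two normal components. -/
theorem caseN (hA : ∀ x, A x ∈ F.C x) (eA : ∀ (g : G) x, cj g (A x) = A (g • x))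
    (hB : ∀ x, B x ∈ F.C x) (eB : ∀ (g : G) x, cj g (B x) = B (g • x)) (hAB : ∀ x, A x ≠ B x)
    (hC : ∀ x, ∀ T ∈ F.C x, T = A x ∨ T = B x) (x : Ω) : False := by
  have key : ∀ {A B : Ω → Subgroup G}, (∀ x, A x ∈ F.C x) → (∀ (g : G) x, cj g (A x) = A (g • x)) →
      (∀ x, B x ∈ F.C x) → (∀ (g : G) x, cj g (B x) = B (g • x)) → (∀ x, A x ≠ B x) →
      ∀ {x y a}, a ∈ A x → a ∈ A y → a ≠ 1 → x = y := fun hA eA hB eB hAB x y a h1 h2 a1 =>
    by_contra fun hxy => n_false hA eA hB eB hAB (fun h => by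
      obtain ⟨g, rfl, rfl⟩ := F.tr hxy h
      exact ⟨_, by rw [← eA, ← eA, ← cj_inf]; exact conj_mem_cj.2 ⟨h1, h2⟩, Cj.ne_one ⟨g, rfl⟩ a1⟩) x
  have kA := @key _ _ hA eA hB eB hAB
  have kB := @key _ _ hB eB hA eA fun x => (hAB x).symm
  have mix : ∀ {x y a}, a ∈ A x → a ∈ B y → a ≠ 1 → False := fun {x y a} h1 h2 a1 => by
    by_cases e : x = y
    · exact a1 (F.disj (hA y) (hB y) (hAB y) (e ▸ h1) h2)
    obtain ⟨b, hb, hby⟩ := n_moves hB eB e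
    refine hby (kB ?_ h2 a1)
    rw [← eB, ← conj_eq_iff_comm.2 (mem_cz.1 (F.cm (hB x) (hA x) (hAB x).symm hb) a h1).symm]
    exact conj_mem_cj.2 h2
  refine not_ti (F := F) (fun hT hS h1 h2 a1 => ?_) x
  rcases hC _ _ hT with rfl | rfl <;> rcases hC _ _ hS with rfl | rfl
  exacts [kA h1 h2 a1 ▸ rfl, (mix h1 h2 a1).elim, (mix h2 h1 a1).elim, kB h1 h2 a1 ▸ rfl]

end Fam

end Cfsg.Agent.H7.ON
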