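import Cfsg.Agent.H7.ON.CaseN

/-!
# The case of conjugate components: edges
-/

set_option autoImplicit false

namespace Cfsg.Agent.H7.ON

open Subgroup H5 Asch MulAction

variable {G Ω : Type*} [Group G] [MulAction G Ω] [Finite G]

namespace Fam

variable (F : Fam G Ω) (M : ℕ)

/-- Two components whose intersection has the maximal order. -/
def E (x : Ω) (T : Subgroup G) (y : Ω) (S : Subgroup G) : Prop :=
  T ∈ F.C x ∧ S ∈ F.C y ∧ T ≠ S ∧ Nat.card ↥(T ⊓ S) = M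

/-- The points with a component containing `X`. -/
def ln (X : Subgroup G) : Set Ω := {z | ∃ R ∈ F.C z, X ≤ R}

/-- All components are conjugate and `M > 1` is the maximal order of an intersection. -/
structure Orb : Prop where
  conj : ∀ {x y T S}, T ∈ F.C x → S ∈ F.C y → ∃ g, cj g T = S
  max : ∀ {x y T S}, T ∈ F.C x → S ∈ F.C y → T ≠ S → Nat.card ↥(T ⊓ S) ≤ M
  one_lt : 1 < M
  ex : ∃ x T y S, F.E M x T y S

variable {F M} {x y z w v p q : Ω} {T S R V U P Q X R' V' : Subgroup G} {a b c g : G}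

omit [Finite G] in
theorem E.symm (h : F.E M x T y S) : F.E M y S x T := ⟨h.2.1, h.1, h.2.2.1.symm, inf_comm T S ▸ h.2.2.2⟩

omit [Finite G] in
theorem E.conj (h : F.E M x T y S) (g : G) : F.E M (g • x) (cj g T) (g • y) (cj g S) :=
  ⟨F.eqv g h.1, F.eqv g h.2.1, fun e => h.2.2.1 (cj_inj.1 e), by rw [← cj_inf, card_cj, h.2.2.2]⟩

omit [Finite G] in
theorem E.l1 (h : F.E M x T y S) : x ∈ F.ln (T ⊓ S) := ⟨T, h.1, inf_le_left⟩

omit [Finite G] in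
theorem E.l2 (h : F.E M x T y S) : y ∈ F.ln (T ⊓ S) := ⟨S, h.2.1, inf_le_right⟩

omit [Finite G] in
theorem ln_conj (h : v ∈ F.ln X) (g : G) : g • v ∈ F.ln (cj g X) := by
  obtain ⟨R, hR, h⟩ := h
  exact ⟨_, F.eqv g hR, cj_le_cj.2 h⟩

omit [Finite G] in
theorem ln_fix (h : v ∈ F.ln X) (ha : a ∈ X) : a • v = v := by
  obtain ⟨R, hR, h⟩ := h
  exact F.fix hR (h ha)

omit [Finite G] in
theorem cj_of_le (hR : R ∈ F.C z) (hT : T ∈ F.C z) (h : T ≠ R) (hX : X ≤ R) (ha : a ∈ T) : cj a X = X :=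
  cj_of_cz (centralizer_le hX (F.cm hT hR h ha))

omit [Finite G] in
theorem ln_smul (hR : R ∈ F.C z) (hT : T ∈ F.C z) (h : T ≠ R) (hX : X ≤ R) (ha : a ∈ T)
    (hv : v ∈ F.ln X) : a • v ∈ F.ln X := cj_of_le hR hT h hX ha ▸ ln_conj hv a

namespace Orb

variable (hO : F.Orb M)
include hO

theorem nt (hX : Nat.card X = M) : ∃ a ∈ X, a ≠ 1 :=
  (X.bot_or_exists_ne_one).resolve_left ((one_lt_card_iff_ne_bot X).1 (hX ▸ hO.one_lt))

theorem eq_of_le (hX : Nat.card X = M) (hT : T ∈ F.C x) (hS : S ∈ F.C x) (h1 : X ≤ T) (h2 : X ≤ S) :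
    T = S := by
  obtain ⟨a, ha, a1⟩ := hO.nt hX
  exact by_contra fun h => a1 (F.disj hT hS h (h1 ha) (h2 ha))

theorem ne (h : F.E M x T y S) : x ≠ y := fun e =>
  h.2.2.1 (hO.eq_of_le h.2.2.2 h.1 (e ▸ h.2.1) inf_le_left inf_le_right)

theorem of_le (hX : Nat.card X = M) (hT : T ∈ F.C x) (hS : S ∈ F.C y) (hxy : x ≠ y) (h1 : X ≤ T)
    (h2 : X ≤ S) : X = T ⊓ S ∧ F.E M x T y S := by
  have hne := F.ne_of_ne hT hS hxy
  have := eq_of_le_of_card_ge (le_inf h1 h2) (hX ▸ hO.max hT hS hne)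
  exact ⟨this, hT, hS, hne, this ▸ hX⟩

theorem all (h : x ≠ y) : ∃ T S, F.E M x T y S := by
  obtain ⟨x', T, y', S, hE⟩ := hO.ex
  obtain ⟨g, rfl, rfl⟩ := F.tr (hO.ne hE) h
  exact ⟨_, _, hE.conj g⟩

theorem moves (h : F.E M x T y S) : ∃ a ∈ T, a • y ≠ y := by
  by_contra hn
  push Not at hn
  obtain ⟨a, ha, a1⟩ := hO.nt h.2.2.2
  have h1 := (F.sn h.1).norm _ (fun g hg => F.cj_N (hn g hg)) a ha.1 (F.le_N h.2.1 ha.2) a1
  have h2 := (F.sn h.1).norm _ (fun g hg => F.N_cj (h1 hg) h.2.1) a ha.1 ha.2 a1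
  obtain ⟨g, hg⟩ := hO.conj h.1 h.2.1
  exact h.2.2.1 (eq_of_le_of_card_ge h2 (by rw [← hg, card_cj]))

theorem push (h : F.E M z R w V) (hT : T ∈ F.C z) (hne : T ≠ R) (ha : a ∈ T) (hw : a • w ≠ w) :
    R ⊓ V = V ⊓ cj a V ∧ F.E M w V (a • w) (cj a V) :=
  hO.of_le h.2.2.2 h.2.1 (F.eqv a h.2.1) hw.symm inf_le_right
    (cj_of_le h.1 hT hne inf_le_left ha ▸ cj_le_cj.2 inf_le_right)

theorem not_norm (h : F.E M x T y S) : ¬ T ≤ normalizer ((T ⊓ S : Subgroup G) : Set G) := fun hn => by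
  obtain ⟨a, ha, a1⟩ := hO.nt h.2.2.2
  obtain ⟨b, hb, hby⟩ := hO.moves h
  exact hby (F.fix h.2.1 ((F.sn h.1).norm _ (fun g hg => cj_eq_iff.2 (hn hg)) a ha.1 ha a1 hb).2)

theorem deg2 (h1 : F.E M z R w V) (h2 : F.E M z R' w V) (hne : R ≠ R') (h : F.E M z T w S) :
    T = R ∨ T = R' := by
  by_contra hn
  push Not at hn
  obtain ⟨a, ha, hw⟩ := hO.moves h
  refine hne (hO.eq_of_le h1.2.2.2 h1.1 h2.1 inf_le_left ?_)
  rw [(hO.push h1 h.1 hn.1 ha hw).1, ← (hO.push h2 h.1 hn.2 ha hw).1]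
  exact inf_le_left

theorem deg2_fix (h1 : F.E M z R w V) (h2 : F.E M z R' w V) (hne : R ≠ R') (ha : a ∈ R)
    (hn : cj a (R ⊓ V) = R ⊓ V) : a • w = w := by
  by_contra hw
  refine hne (hO.eq_of_le h1.2.2.2 h1.1 h2.1 inf_le_left (le_trans ?_ (inf_le_left (b := V))))
  rw [(hO.push h2 h1.1 hne ha hw).1]
  exact le_inf inf_le_right (hn ▸ cj_le_cj.2 inf_le_right)

/-- The edges between two points form a matching. -/
theorem matching (h1 : F.E M z R w V) (h2 : F.E M z R' w V) : R = R' := by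
  by_contra hne
  have hP : ∀ {p q}, p ≠ q → ∃ U A B, F.E M p A q U ∧ F.E M p B q U ∧ A ≠ B := fun h => by
    obtain ⟨g, rfl, rfl⟩ := F.tr (hO.ne h1) h
    exact ⟨_, _, _, h1.conj g, h2.conj g, fun e => hne (cj_inj.1 e)⟩
  obtain ⟨R1, R2, V2, e11, e21, e12, hR, hV⟩ : ∃ R1 R2 V2, F.E M z R1 w V ∧ F.E M z R2 w V ∧
      F.E M z R1 w V2 ∧ R1 ≠ R2 ∧ V ≠ V2 := by
    obtain ⟨U, A, B, k1, k2, k3⟩ := hP (hO.ne h1).symm
    obtain ⟨V2, k4, k5⟩ : ∃ V2, F.E M z U w V2 ∧ V ≠ V2 := by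
      by_cases e : V = A
      exacts [⟨B, k2.symm, e ▸ k3⟩, ⟨A, k1.symm, e⟩]
    rcases hO.deg2 h1 h2 hne k4 with rfl | rfl
    exacts [⟨_, _, _, h1, h2, k4, hne, k5⟩, ⟨_, _, _, h2, h1, k4, Ne.symm hne, k5⟩]
  have pu : ∀ c ∈ R2, c • w ≠ w → F.E M w V (c • w) (cj c V) ∧ F.E M w V2 (c • w) (cj c V2) :=
    fun c hc hw => ⟨(hO.push e11 e21.1 hR.symm hc hw).2, (hO.push e12 e21.1 hR.symm hc hw).2⟩
  obtain ⟨a0, ha0, hw0⟩ := hO.moves e21
  obtain ⟨c, hc, c2, hw⟩ : ∃ c ∈ R2, c * c = 1 ∧ c • w ≠ w := by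
    by_contra hn
    exact hw0 ((F.sn e21.1).le_of_inv (K := stabilizer G w)
      (fun t ht t2 => by_contra fun h => hn ⟨t, ht, t2, h⟩) ha0)
  obtain ⟨f11, f22⟩ := pu c hc hw
  have sw : ∀ {A B}, F.E M w A (c • w) (cj c B) → F.E M w B (c • w) (cj c A) := fun h => by
    have := (h.conj c).symm
    rwa [smul_smul, cj_cj, c2, one_smul, cj_one] at this
  have f21 : F.E M w V2 (c • w) (cj c V) := by
    obtain ⟨U, A, B, k1, k2, k3⟩ := hP hw.symm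
    obtain ⟨U', A', B', l1, l2, l3⟩ := hP hw
    have m : ∀ {W W'}, F.E M w W (c • w) W' → F.E M w W (c • w) U := fun h => by
      rcases hO.deg2 k1 k2 k3 h with rfl | rfl
      exacts [k1, k2]
    have hU : U = cj c V ∨ U = cj c V2 := by
      have n : cj c V ≠ cj c V2 := fun e => hV (cj_inj.1 e)
      rcases hO.deg2 l1 l2 l3 k1.symm with e1 | e1 <;> rcases hO.deg2 l1 l2 l3 f11.symm with e2 | e2 <;>
        rcases hO.deg2 l1 l2 l3 f22.symm with e3 | e3 <;> simp_all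
    rcases hU with rfl | rfl
    exacts [m f22, sw (m f11)]
  have hK : ∀ {p q A A' B B'}, F.E M p A q A' → F.E M p B' q B → F.E M p A q B := fun {p q A A' B B'} k1 k2 => by
    obtain ⟨g, g1, g2⟩ := F.tr (hO.ne k1) hw.symm
    have l1 := k1.conj g
    have l2 := k2.conj g
    rw [g1, g2] at l1 l2
    have l3 : F.E M w (cj g A) (c • w) (cj g B) := by
      rcases hO.deg2 f11 f21 hV l1 with e1 | e1 <;>
        rcases hO.deg2 f11.symm (sw f21).symm (fun e => hV (cj_inj.1 e)) l2.symm with e2 | e2 <;> rw [e1, e2]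
      exacts [f11, sw f21, f21, f22]
    have l4 := l3.conj g⁻¹
    rwa [← g2, ← g1, inv_smul_smul, inv_smul_smul, cj_inv_cj, cj_inv_cj] at l4
  obtain ⟨u, hu, u1⟩ := hO.nt e21.2.2.2
  refine hw0 ((F.sn e21.1).fix_of (s := {v | ∃ d ∈ R2, d • w = v}) ?_ hu.1 u1 ?_ a0 ha0 w ⟨1, R2.one_mem, one_smul _ _⟩)
  · rintro g hg _ ⟨d, hd, rfl⟩
    exact ⟨_, R2.mul_mem hg hd, mul_smul _ _ _⟩
  rintro _ ⟨d, hd, rfl⟩
  by_cases hd' : d • w = w
  · rw [hd', F.fix e21.2.1 hu.2]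
  refine hO.deg2_fix (pu d hd hd').1 (hK (pu d hd hd').2 (pu d hd hd').1) hV hu.2 ?_
  rw [← (hO.push e11 e21.1 hR.symm hd hd').1]
  exact cj_of_le e11.1 e21.1 hR.symm inf_le_left hu.1

variable [Finite Ω]

theorem ineq (h : F.E M z R y S) (h' : F.E M z R' w V) (hne : R' ≠ R) :
    5 * ((F.ln (R ⊓ S) ∩ F.ln (R' ⊓ V)) \ {z}).ncard ≤ (F.ln (R ⊓ S) \ {z}).ncard := by
  classical
  have := Fintype.ofFinite G
  have := Fintype.ofFinite Ω
  have h5 := (F.sn h'.1).five_le (hO.not_norm h')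
  set H := normalizer ((R' ⊓ V : Subgroup G) : Set G) ⊓ R'
  have h5 : 5 ≤ H.relIndex R' := by rwa [inf_relIndex_right]
  have h6 := card_mul_relIndex (inf_le_right : H ≤ R')
  have key : ((R' : Set G).toFinset ×ˢ ((F.ln (R ⊓ S) ∩ F.ln (R' ⊓ V)) \ {z}).toFinset).card ≤
      Nat.card H * (F.ln (R ⊓ S) \ {z}).toFinset.card := by
    refine Finset.card_le_mul_card_image_of_maps_to (f := fun p => p.1 • p.2) ?_ _ fun v _ => ?_
    · simp only [Finset.mem_product, Set.mem_toFinset]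
      rintro ⟨a, v⟩ ⟨ha, ⟨h1, -⟩, h2⟩
      exact ⟨ln_smul h.1 h'.1 hne inf_le_left ha h1, fun e => h2 ((smul_left_cancel_iff a).1
        (e.trans (F.fix h'.1 ha).symm))⟩
    rcases Finset.eq_empty_or_nonempty (((R' : Set G).toFinset ×ˢ ((F.ln (R ⊓ S) ∩ F.ln (R' ⊓ V)) \
      {z}).toFinset).filter fun p => p.1 • p.2 = v) with e | ⟨⟨a0, v0⟩, h0⟩
    · rw [e, Finset.card_empty]
      exact Nat.zero_le _
    rw [Nat.card_eq_fintype_card, Fintype.card_subtype]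
    simp only [Finset.mem_filter, Finset.mem_product, Set.mem_toFinset] at h0
    refine Finset.card_le_card_of_injOn (fun p => a0⁻¹ * p.1) ?_ ?_
    · simp only [Set.MapsTo, Finset.mem_coe, Finset.mem_filter, Finset.mem_product, Set.mem_toFinset]
      rintro ⟨a, u⟩ ⟨⟨ha, ⟨-, A, hA, h1⟩, h2⟩, e⟩
      obtain ⟨⟨ha0, ⟨-, B, hB, h3⟩, h4⟩, e0⟩ := h0
      have hm := R'.mul_mem (R'.inv_mem ha0) ha
      refine ⟨Finset.mem_univ _, cj_eq_iff.1 ?_, hm⟩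
      obtain ⟨k1, k2⟩ := hO.of_le h'.2.2.2 h'.1 hA (Ne.symm h2) inf_le_left h1
      obtain ⟨k3, k4⟩ := hO.of_le h'.2.2.2 h'.1 hB (Ne.symm h4) inf_le_left h3
      have k5 := k2.conj (a0⁻¹ * a)
      rw [F.fix h'.1 hm, cj_of_mem hm, mul_smul, e, ← e0, inv_smul_smul] at k5
      nth_rewrite 1 [k1]
      rw [cj_inf, cj_of_mem hm, hO.matching k5.symm k4.symm, k3]
    · simp only [Set.InjOn, Finset.mem_coe, Finset.mem_filter]
      rintro ⟨a, u⟩ ⟨-, e⟩ ⟨b, u'⟩ ⟨-, e'⟩ hab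
      obtain rfl : a = b := mul_left_cancel hab
      exact Prod.ext rfl ((smul_left_cancel_iff a).1 (e.trans e'.symm))
  rw [Finset.card_product, ← Set.ncard_eq_toFinset_card', ← Set.ncard_eq_toFinset_card',
    ← Set.ncard_eq_toFinset_card', ← Nat.card_coe_set_eq, SetLike.coe_sort_coe, ← h6] at key
  rw [mul_assoc] at key
  exact (Nat.mul_le_mul_right _ h5).trans (Nat.le_of_mul_le_mul_left key Nat.card_pos)

/-- There is exactly one edge between two points. -/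
theorem uniq (h : F.E M z R w V) (h' : F.E M z R' w V') : R = R' := by
  by_contra hne
  have le : ∀ {x y x' y'}, x ≠ y → x' ≠ y' →
      {T | ∃ S, F.E M x T y S}.ncard ≤ {T | ∃ S, F.E M x' T y' S}.ncard := fun h h' => by
    obtain ⟨g, rfl, rfl⟩ := F.tr h h'
    rw [← ncard_cj g]
    refine Set.ncard_le_ncard ?_
    rintro _ ⟨T, ⟨S, hS⟩, rfl⟩
    exact ⟨_, hS.conj g⟩
  have h1 := hO.ineq h h' (Ne.symm hne)
  have h2 : 0 < ((F.ln (R ⊓ V) ∩ F.ln (R' ⊓ V')) \ {z}).ncard :=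
    (Set.ncard_pos (Set.toFinite _)).2 ⟨w, ⟨h.l2, h'.l2⟩, (hO.ne h).symm⟩
  obtain ⟨a, ha, a1⟩ := hO.nt h.2.2.2
  obtain ⟨y, hy⟩ : ∃ y : Ω, a • y ≠ y := by
    by_contra hn
    exact a1 (F.fa a fun w => by_contra fun h' => hn ⟨w, h'⟩)
  obtain ⟨g, g1, g2⟩ := F.tr (hO.ne h) hy.symm
  have k1 := h.conj g
  have k2 := h'.conj g
  have k3 : cj g R ≠ cj g R' := fun e => hne (cj_inj.1 e)
  rw [g1, g2] at k1 k2
  generalize cj g R = A at k1 k3
  generalize cj g R' = A' at k2 k3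
  generalize cj g V = B at k1
  generalize cj g V' = B' at k2
  have cov : F.ln (R ⊓ V) ⊆ F.ln (R ⊓ V) ∩ F.ln (A ⊓ B) ∪ F.ln (R ⊓ V) ∩ F.ln (A' ⊓ B') := by
    rintro p ⟨P, hP, hp⟩
    have hyp : y ≠ p := fun e => hy (e ▸ F.fix hP (hp ha))
    have k4 : ∀ {A B}, F.E M y A (a • y) B → ∀ Q, F.E M p Q y A → Q ≠ P → p ∈ F.ln (A ⊓ B) :=
      fun hE Q hQ hne => by
        obtain ⟨l1, l2⟩ := hO.push hQ hP hne.symm (hp ha) hy
        exact ⟨Q, hQ.1, by rw [hO.matching hE.symm l2.symm, ← l1]; exact inf_le_left⟩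
    by_contra hn
    have hs : {T | ∃ S, F.E M y T p S ∧ S ≠ P} ⊆ {T | ∃ S, F.E M y T (a • y) S} \ {A, A'} := by
      rintro T ⟨S, hS, hne⟩
      refine ⟨⟨_, (hO.push hS.symm hP hne.symm (hp ha) hy).2⟩, ?_⟩
      rintro (rfl | rfl)
      exacts [hn (Or.inl ⟨⟨P, hP, hp⟩, k4 k1 S hS.symm hne⟩), hn (Or.inr ⟨⟨P, hP, hp⟩, k4 k2 S hS.symm hne⟩)]
    have l1 := Set.ncard_le_ncard hs
    have l2 := Set.ncard_sdiff_add_ncard_of_subset (show {A, A'} ⊆ {T | ∃ S, F.E M y T (a • y) S} by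
      rintro _ (rfl | rfl)
      exacts [⟨_, k1⟩, ⟨_, k2⟩])
    have l3 := le hy.symm hyp
    have l4 := (Set.ncard_le_ncard (show {T | ∃ S, F.E M y T p S} ⊆ {T | ∃ S, F.E M y T p S ∧ S ≠ P} ∪
      {T | F.E M y T p P} from fun T ⟨S, hS⟩ => by
        by_cases e : S = P
        exacts [Or.inr (e ▸ hS), Or.inl ⟨S, hS, e⟩])).trans (Set.ncard_union_le _ _)
    have l5 : {T | F.E M y T p P}.ncard ≤ 1 := (Set.ncard_le_one (Set.toFinite _)).2 fun _ h1 _ h2 =>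
      hO.matching h1 h2
    rw [Set.ncard_pair k3] at l2
    omega
  have hz := Set.ncard_sdiff_singleton_add_one h.l1
  have bd : ∀ {A B}, F.E M y A (a • y) B →
      5 * (F.ln (R ⊓ V) ∩ F.ln (A ⊓ B)).ncard ≤ (F.ln (R ⊓ V)).ncard + 4 := fun {A B} hE => by
    by_cases hs : (F.ln (R ⊓ V) ∩ F.ln (A ⊓ B)).ncard ≤ 1
    · omega
    obtain ⟨p, ⟨⟨P, hP, p1⟩, P', hP', p2⟩, q, ⟨⟨Q, hQ, q1⟩, Q', hQ', q2⟩, hpq⟩ :=
      (Set.one_lt_ncard (Set.toFinite _)).1 (not_le.1 hs)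
    obtain ⟨e1, e2⟩ := hO.of_le h.2.2.2 hP hQ hpq p1 q1
    obtain ⟨e3, e4⟩ := hO.of_le hE.2.2.2 hP' hQ' hpq p2 q2
    have l1 := hO.ineq e2 e4 fun e => by
      subst e
      obtain rfl := hO.matching e2.symm e4.symm
      exact hy (F.fix hE.1 ((e3.trans e1.symm).ge ha).1)
    rw [← e1, ← e3] at l1
    have l2 := Set.ncard_sdiff_singleton_add_one (show p ∈ F.ln (R ⊓ V) from ⟨P, hP, p1⟩)
    have l3 := Set.ncard_sdiff_singleton_add_one (show p ∈ F.ln (R ⊓ V) ∩ F.ln (A ⊓ B) from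
      ⟨⟨P, hP, p1⟩, P', hP', p2⟩)
    omega
  have l1 := (Set.ncard_le_ncard cov).trans (Set.ncard_union_le _ _)
  have l2 := bd k1
  have l3 := bd k2
  omega

end Orb

end Fam

end Cfsg.Agent.H7.ON
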