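import Cfsg.Agent.H7.ON.CaseO

/-!
# The case of conjugate components: the linear space
-/

set_option autoImplicit false

namespace Cfsg.Agent.H7.ON

open Subgroup H5 Asch MulAction

theorem dc {α β : Type*} [Finite α] [Finite β] {s : Set α} {t : Set β} (r : α → β → Prop) {m n : ℕ}
    (hm : ∀ a ∈ s, m ≤ {b | b ∈ t ∧ r a b}.ncard) (hn : ∀ b ∈ t, {a | a ∈ s ∧ r a b}.ncard ≤ n) :
    s.ncard * m ≤ t.ncard * n := by
  classical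
  have := Fintype.ofFinite α
  have := Fintype.ofFinite β
  rw [Set.ncard_eq_toFinset_card' s, Set.ncard_eq_toFinset_card' t]
  refine Finset.card_mul_le_card_mul r (fun a ha => (hm a (Set.mem_toFinset.1 ha)).trans_eq ?_)
    fun b hb => (hn b (Set.mem_toFinset.1 hb)).trans_eq' ?_
  all_goals
    rw [← Set.ncard_coe_finset]
    congr 1
    ext
    simp

variable {G Ω : Type*} [Group G] [MulAction G Ω] [Finite G] [Finite Ω]

namespace Fam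

variable (F : Fam G Ω) (M : ℕ)

/-- The points joined to `z` through the component `T`. -/
def D (z : Ω) (T : Subgroup G) : Set Ω := {w | ∃ V, F.E M z T w V}

variable {F M} {x y z w v p q : Ω} {T S R V U P Q X T' S' : Subgroup G} {a b c g : G}

namespace Orb

variable (hO : F.Orb M)
include hO

theorem ln_eq (hX : Nat.card X = M) (hp : p ∈ F.ln X) (hq : q ∈ F.ln X) (h : F.E M p P q Q) :
    X = P ⊓ Q := by
  obtain ⟨A, hA, h1⟩ := hp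
  obtain ⟨B, hB, h2⟩ := hq
  obtain ⟨e, k⟩ := hO.of_le hX hA hB (hO.ne h) h1 h2
  rw [e, hO.uniq k h, hO.uniq k.symm h.symm]

theorem mem_D (h : F.E M z T w S) (hv : v ∈ F.ln (T ⊓ S)) (hz : v ≠ z) : v ∈ F.D M z T := by
  obtain ⟨A, hA, h1⟩ := hv
  exact ⟨A, (hO.of_le h.2.2.2 h.1 hA hz.symm inf_le_left h1).2⟩

theorem trans (h : F.E M x T y S) (h' : F.E M z T' w S') :
    ∃ g : G, g • x = z ∧ g • y = w ∧ cj g T = T' ∧ cj g S = S' := by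
  obtain ⟨g, rfl, rfl⟩ := F.tr (hO.ne h) (hO.ne h')
  exact ⟨g, rfl, rfl, hO.uniq (h.conj g) h', hO.uniq (h.conj g).symm h'.symm⟩

theorem ln_le (h : F.E M x T y S) (h' : F.E M z T' w S') :
    (F.ln (T ⊓ S)).ncard ≤ (F.ln (T' ⊓ S')).ncard := by
  obtain ⟨g, -, -, rfl, rfl⟩ := hO.trans h h'
  exact Set.ncard_le_ncard_of_injOn (g • ·) (fun v hv => cj_inf (g := g) ▸ ln_conj hv g)
    (MulAction.injective g).injOn

theorem D_le (hT : T ∈ F.C x) (hS : S ∈ F.C y) : (F.D M x T).ncard ≤ (F.D M y S).ncard := by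
  obtain ⟨g, rfl⟩ := hO.conj hT hS
  obtain rfl := F.uniq (F.eqv g hT) hS
  exact Set.ncard_le_ncard_of_injOn (g • ·) (fun v ⟨_, hv⟩ => ⟨_, hv.conj g⟩) (MulAction.injective g).injOn

theorem D_le' (hT : T ∈ F.C x) : (F.D M x T).ncard ≤ {y | y ≠ x ∧ y ∉ F.D M x T}.ncard := by
  obtain ⟨S, hS, hne⟩ := F.other hT
  exact (hO.D_le hT hS).trans (Set.ncard_le_ncard fun y ⟨_, hy⟩ =>
    ⟨(hO.ne hy).symm, fun ⟨_, hy'⟩ => hne (hO.uniq hy hy')⟩)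

theorem caseF (hF : ∀ {z R w V U u}, F.E M z R w V → U ∈ F.C z → U ≠ R → u ∈ U → u ≠ 1 →
    ∃ v ∈ F.ln (R ⊓ V), u • v ≠ v) : False := by
  obtain ⟨z0, R0, w0, V0, h0⟩ := hO.ex
  obtain ⟨a, ha, a1⟩ := hO.nt h0.2.2.2
  choose! ρ hρ hX using fun z (hz : z ∈ F.ln (R0 ⊓ V0)) => hz
  let Mv : Ω → Set Ω := fun z => {w | a • w ≠ w ∧ w ∉ F.D M z (ρ z)}
  obtain ⟨z, hz, hm⟩ := Set.exists_min_image _ (fun z => (Mv z).ncard) (Set.toFinite _) ⟨z0, h0.l1⟩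
  have h1 := dc (s := F.ln (R0 ⊓ V0)) (t := {z}ᶜ) (fun p w => w ∈ Mv p) (m := (Mv z).ncard) (n := 1)
    (fun p hp => (hm p hp).trans (Set.ncard_le_ncard fun w hw => ⟨fun e => hw.1 (e ▸ ln_fix hz ha), hw⟩))
    fun w _ => (Set.ncard_le_one (Set.toFinite _)).2 fun p hp q hq => by
      by_contra hpq
      obtain ⟨T, W, e1⟩ := hO.all (show p ≠ w from fun e => hp.2.1 (e ▸ ln_fix hp.1 ha))
      obtain ⟨T', W', e2⟩ := hO.all (show q ≠ w from fun e => hq.2.1 (e ▸ ln_fix hq.1 ha))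
      obtain ⟨k1, k2⟩ := hO.push e1 (hρ p hp.1) (fun e => hp.2.2 ⟨W, e ▸ e1⟩) (hX p hp.1 ha) hp.2.1
      obtain ⟨k3, k4⟩ := hO.push e2 (hρ q hq.1) (fun e => hq.2.2 ⟨W', e ▸ e2⟩) (hX q hq.1 ha) hp.2.1
      obtain rfl := hO.uniq k2 k4
      obtain ⟨P, Q, e3⟩ := hO.all hpq
      have k5 := (hO.ln_eq h0.2.2.2 hp.1 hq.1 e3).trans
        (hO.ln_eq e1.2.2.2 e1.l1 (k1.symm ▸ k3 ▸ e2.l1) e3).symm
      exact hp.2.1 (F.fix e1.2.1 (k5.le ha).2)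
  have h2 := dc (s := {y | y ≠ z ∧ y ∉ F.D M z (ρ z)}) (t := Mv z)
    (fun v w => ∃ T W, F.E M z T v W ∧ w ∈ F.ln (T ⊓ W)) (m := 2) (n := (F.ln (R0 ⊓ V0)).ncard - 1)
    (fun v hv => by
      obtain ⟨T, W, e1⟩ := hO.all hv.1.symm
      have hne : ρ z ≠ T := fun e => hv.2 ⟨W, e ▸ e1⟩
      obtain ⟨u, hu, hau⟩ := hF e1 (hρ z hz) hne (hX z hz ha) a1
      have k : ∀ u ∈ F.ln (T ⊓ W), a • u ≠ u → u ∈ {w | w ∈ Mv z ∧ ∃ T W, F.E M z T v W ∧ w ∈ F.ln (T ⊓ W)} :=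
        fun u hu hau => ⟨⟨hau, fun ⟨_, h⟩ => by
          obtain ⟨_, h'⟩ := hO.mem_D e1 hu fun e => hau (e ▸ ln_fix hz ha)
          exact hne (hO.uniq h h')⟩, T, W, e1, hu⟩
      exact (Set.one_lt_ncard (Set.toFinite _)).2 ⟨_, k _ (ln_smul e1.1 (hρ z hz) hne inf_le_left
        (hX z hz ha) hu) (fun e => hau ((smul_left_cancel_iff a).1 e)), _, k u hu hau, hau⟩)
    fun w hw => by
      obtain ⟨T, W, e1⟩ := hO.all (show z ≠ w from fun e => hw.1 (e ▸ ln_fix hz ha))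
      have k1 := Set.ncard_sdiff_singleton_add_one e1.l1
      have k2 := hO.ln_le e1 h0
      refine (Set.ncard_le_ncard (t := F.ln (T ⊓ W) \ {z}) ?_).trans (by omega)
      rintro v ⟨hv, T', W', e2, hw'⟩
      exact ⟨hO.ln_eq e2.2.2.2 e2.l1 hw' e1 ▸ e2.l2, hv.1⟩
  have h3 := hO.D_le' (hρ z hz)
  have h4 := (Set.ncard_le_ncard (show ({z}ᶜ : Set Ω) ⊆ F.D M z (ρ z) ∪ {y | y ≠ z ∧ y ∉ F.D M z (ρ z)} from
    fun y hy => (em _).imp id fun h => ⟨hy, h⟩)).trans (Set.ncard_union_le _ _)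
  have h5 : 0 < ({z}ᶜ : Set Ω).ncard := (Set.ncard_pos (Set.toFinite _)).2 (by
    by_cases e : z0 = z
    exacts [⟨w0, e ▸ (hO.ne h0).symm⟩, ⟨z0, e⟩])
  have h6 := Set.ncard_sdiff_singleton_add_one hz
  rw [← h6, Nat.add_sub_cancel] at h2
  rw [← h6] at h1
  nlinarith

theorem nf_all {z0 w0 : Ω} {R0 V0 U0 : Subgroup G} (h0 : F.E M z0 R0 w0 V0) (hU0 : U0 ∈ F.C z0)
    (hne0 : U0 ≠ R0) (hf0 : ∀ g ∈ U0, ∀ v ∈ F.ln (R0 ⊓ V0), g • v = v) (h : F.E M z R y S) (hU : U ∈ F.C z)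
    (hne : U ≠ R) (ha : a ∈ U) : a • y = y := by
  by_contra hy
  obtain ⟨g, g1, -, g3, g4⟩ := hO.trans h0 h.symm
  have hW := F.eqv' hU0 g1
  have hf : ∀ t ∈ cj g U0, ∀ v ∈ F.ln (R ⊓ S), t • v = v := fun t ht v hv => by
    have := hf0 _ (mem_cj.1 ht) (g⁻¹ • v) (by
      have := ln_conj hv g⁻¹
      rwa [inf_comm, ← g3, ← g4, ← cj_inf, cj_inv_cj] at this)
    simpa [mul_smul] using this
  have hs := fun u hu v hv => ln_smul (X := R ⊓ S) (a := u) (v := v) h.1 hU hne inf_le_left hu hv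
  have k : ∀ u ∈ U, (∀ v ∈ F.ln (R ⊓ S), u • v = v) → u = 1 := fun u hu h' => by_contra fun u1 =>
    hy ((F.sn hU).fix_of hs hu u1 h' a ha y h.l2)
  refine hy (F.fix_of_cj hW (cj_of_cz (mem_cz.2 fun t ht => ?_)))
  have k1 : ∀ u ∈ U, ∀ v ∈ F.ln (R ⊓ S), (t * u * t⁻¹) • v = u • v := fun u hu v hv => by
    rw [mul_smul, mul_smul, hf _ (inv_mem ht) v hv, hf t ht _ (hs u hu v hv)]
  by_cases e : cj t U = U
  · refine conj_eq_iff_comm.1 (inv_mul_eq_one.1 (k _ (mul_mem (inv_mem ha) (conj_mem_of_cj e ha))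
      fun v hv => ?_)).symm
    rw [mul_smul, k1 a ha v hv, inv_smul_smul]
  refine absurd (fun u hu => mem_cz.2 fun u' hu' => inv_mul_eq_one.1 (k _ (mul_mem (inv_mem
    (mul_mem hu' hu)) (mul_mem hu hu')) fun v hv => ?_)) (F.sn hU).nab
  rw [mul_smul, inv_smul_eq_iff, mul_smul, mul_smul, ← k1 u hu _ (hs u' hu' v hv), ← k1 u hu v hv,
    ← mul_smul, ← mul_smul u', mem_cz.1 (F.cm (F.eqv' hU (hf t ht z h.l1)) hU e (conj_mem_cj.2 hu)) u' hu']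

theorem caseNF (hN : ∀ {z R y S U a}, F.E M z R y S → U ∈ F.C z → U ≠ R → a ∈ U → a • y = y) : False := by
  obtain ⟨z, T0, w0, V0, h0⟩ := hO.ex
  have h1 := dc (s := {z}ᶜ) (t := {z}ᶜ) (fun v y => ∃ T, z ∈ F.D M y T ∧ v ∈ F.D M y T)
    (m := (F.D M z T0).ncard) (n := (F.D M z T0).ncard - 1) (fun v hv => ?_) fun y hy => ?_
  · have h5 : 0 < ({z}ᶜ : Set Ω).ncard := (Set.ncard_pos (Set.toFinite _)).2 ⟨w0, (hO.ne h0).symm⟩
    have h6 : 0 < (F.D M z T0).ncard := (Set.ncard_pos (Set.toFinite _)).2 ⟨w0, _, h0⟩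
    have := Nat.le_of_mul_le_mul_left h1 h5
    omega
  swap
  · obtain ⟨S, T, e⟩ := hO.all hy
    have k1 := Set.ncard_sdiff_singleton_add_one (show z ∈ F.D M y S from ⟨T, e⟩)
    have k2 := hO.D_le e.1 h0.1
    refine (Set.ncard_le_ncard (t := F.D M y S \ {z}) ?_).trans (by omega)
    rintro v ⟨hv, S', ⟨_, e'⟩, hv'⟩
    exact ⟨hO.uniq e' e ▸ hv', hv⟩
  obtain ⟨T, W, e⟩ := hO.all (Ne.symm hv)
  obtain ⟨t, ht, htv⟩ := hO.moves e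
  obtain ⟨P, Q, e'⟩ := hO.all htv
  set Θ := {y | y ∈ ({z}ᶜ : Set Ω) ∧ ∃ T, z ∈ F.D M y T ∧ v ∈ F.D M y T}
  have k1 : {y | y ≠ z ∧ y ∉ F.D M z T} ⊆ (F.ln (P ⊓ Q) \ {t • v, v}) ∪ (Θ \ (F.ln (T ⊓ W) \ {z, v})) := by
    rintro y ⟨hy, hy'⟩
    by_cases hΘ : y ∈ Θ
    · exact Or.inr ⟨hΘ, fun h => hy' (hO.mem_D e h.1 hy)⟩
    have hyv : y ≠ v := fun h => hy' (h ▸ ⟨W, e⟩)
    obtain ⟨T', S', e1⟩ := hO.all hy.symm
    obtain ⟨S, V', e2⟩ := hO.all hyv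
    have f1 : ∀ a ∈ T, a • y = y := fun a ha => hN e1 e.1 (fun h => hy' ⟨S', h ▸ e1⟩) ha
    have f2 : ∀ a ∈ S, a • z = z := fun a ha => hN e1.symm e2.1 (fun h => hΘ ⟨hy, S, ⟨T', h ▸ e1.symm⟩, V', e2⟩) ha
    have f3 := cj_of_cz (centralizer_le (inf_le_left (b := V'))
      (F.cm' e.1 e2.1 (F.ne_of_ne e.1 e2.1 hy.symm) f1 f2 ht))
    refine Or.inl ⟨hO.ln_eq e2.2.2.2 (f3 ▸ ln_conj e2.l2 t) e2.l2 e' ▸ e2.l1, ?_⟩
    rintro (h | h)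
    exacts [hyv ((smul_left_cancel_iff t).1 ((f1 t ht).trans h)), hyv h]
  have k2 := (Set.ncard_le_ncard k1).trans (Set.ncard_union_le _ _)
  have k3 := Set.ncard_sdiff_add_ncard_of_subset (show F.ln (T ⊓ W) \ {z, v} ⊆ Θ from
    fun y ⟨⟨Y, hY, h⟩, h'⟩ => by
      have h1 : y ≠ z := fun h => h' (Or.inl h)
      exact ⟨h1, Y, ⟨T, (hO.of_le e.2.2.2 hY e.1 h1 h inf_le_left).2⟩,
        W, (hO.of_le e.2.2.2 hY e.2.1 (fun h => h' (Or.inr h)) h inf_le_right).2⟩)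
  have k4 := Set.ncard_sdiff_add_ncard_of_subset (show {z, v} ⊆ F.ln (T ⊓ W) by
    rintro _ (rfl | rfl)
    exacts [e.l1, e.l2])
  have k5 := Set.ncard_sdiff_add_ncard_of_subset (show {t • v, v} ⊆ F.ln (P ⊓ Q) by
    rintro _ (rfl | rfl)
    exacts [e'.l1, e'.l2])
  rw [Set.ncard_pair (Ne.symm hv)] at k4
  rw [Set.ncard_pair htv] at k5
  have k6 := hO.ln_le e' e
  have k7 := hO.D_le h0.1 e.1
  have k8 := hO.D_le' e.1
  omega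

theorem false : False := by
  refine hO.caseF fun {z R w V U u} h hU hne hu u1 => by_contra fun hn => hO.caseNF fun h' hU' hne' ha =>
    hO.nf_all h hU hne ((F.sn hU).fix_of (fun g hg v hv => ln_smul h.1 hU hne inf_le_left hg hv) hu u1
      fun v hv => by_contra fun h => hn ⟨v, hv, h⟩) h' hU' hne' ha

end Orb

/-- The case of conjugate components. -/
theorem caseO (hc : ∀ {x y T S}, T ∈ F.C x → S ∈ F.C y → ∃ g, cj g T = S) (x : Ω) : False := by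
  refine not_ti (F := F) (fun {x y T S a} hT hS h1 h2 a1 => by_contra fun hne => ?_) x
  obtain ⟨⟨A, B⟩, ⟨⟨p, hA⟩, ⟨q, hB⟩, hAB⟩, hm⟩ := Set.exists_max_image
    {P : Subgroup G × Subgroup G | (∃ x, P.1 ∈ F.C x) ∧ (∃ y, P.2 ∈ F.C y) ∧ P.1 ≠ P.2}
    (fun P => Nat.card ↥(P.1 ⊓ P.2)) (Set.toFinite _) ⟨(T, S), ⟨x, hT⟩, ⟨y, hS⟩, hne⟩
  refine Orb.false (F := F) (M := Nat.card ↥(A ⊓ B)) ⟨hc, fun hT hS h => hm (_, _) ⟨⟨_, hT⟩, ⟨_, hS⟩, h⟩,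
    lt_of_lt_of_le ?_ (hm (T, S) ⟨⟨_, hT⟩, ⟨_, hS⟩, hne⟩), p, A, q, B, hA, hB, hAB, rfl⟩
  exact (one_lt_card_iff_ne_bot _).2 fun e => a1 (mem_bot.1 (e ▸ ⟨h1, h2⟩))

end Fam

end Cfsg.Agent.H7.ON
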