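import Cfsg.Agent.H7.ON.Basic

/-!
# Families of simple components of point stabilizers in a doubly transitive group
-/

set_option autoImplicit false

namespace Cfsg.Agent.H7.ON

open Subgroup H5 Asch MulAction

variable {G Ω : Type*} [Group G] [MulAction G Ω]

theorem mem_sup_cz {T A : Subgroup G} (h : A ≤ cz T) {n : G} (hn : n ∈ T ⊔ A) :
    ∃ c ∈ A, ∃ u ∈ T, n = c * u := by
  let K : Subgroup G :=
    { carrier := {n | ∃ c ∈ A, ∃ u ∈ T, n = c * u}
      one_mem' := ⟨1, A.one_mem, 1, T.one_mem, by simp⟩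
      mul_mem' := by
        rintro _ _ ⟨c, hc, u, hu, rfl⟩ ⟨d, hd, v, hv, rfl⟩
        exact ⟨_, A.mul_mem hc hd, _, T.mul_mem hu hv, by
          rw [mul_assoc, ← mul_assoc u, mem_cz.1 (h hd) u hu]; simp only [mul_assoc]⟩
      inv_mem' := by
        rintro _ ⟨c, hc, u, hu, rfl⟩
        exact ⟨_, A.inv_mem hc, _, T.inv_mem hu, by
          rw [mul_inv_rev, mem_cz.1 (h (A.inv_mem hc)) _ (T.inv_mem hu)]⟩ }
  exact (sup_le (fun u hu => ⟨1, A.one_mem, u, hu, by simp⟩)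
    (fun c hc => ⟨c, hc, 1, T.one_mem, by simp⟩) : T ⊔ A ≤ K) hn

theorem smul_eq_of_comm {a g : G} {x : Ω} (h : a * g = g * a) (hx : a • x = x) :
    a • g • x = g • x := by rw [← mul_smul, h, mul_smul, hx]

theorem conj_smul_smul (g a : G) (x : Ω) : (g * a * g⁻¹) • g • x = g • a • x := by
  simp [mul_smul]

variable (G Ω) in
/-- An invariant family of at least two simple components in each point stabilizer. -/
structure Fam where
  /-- the components at a point -/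
  C : Ω → Set (Subgroup G)
  sn : ∀ {x T}, T ∈ C x → SN T
  comp : ∀ {x T}, T ∈ C x → CompIn T (stabilizer G x)
  eqv : ∀ {x T} (g : G), T ∈ C x → cj g T ∈ C (g • x)
  two : ∀ x, ∃ T ∈ C x, ∃ S ∈ C x, T ≠ S
  tr : ∀ {x y x' y' : Ω}, x ≠ y → x' ≠ y' → ∃ g : G, g • x = x' ∧ g • y = y'
  fa : ∀ g : G, (∀ x : Ω, g • x = x) → g = 1

namespace Fam

variable (F : Fam G Ω) {x y : Ω} {T S : Subgroup G} {a b g n : G}

theorem fix (hT : T ∈ F.C x) (ha : a ∈ T) : a • x = x := (F.comp hT).le ha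

theorem eqv' (hT : T ∈ F.C x) (hg : g • x = y) : cj g T ∈ F.C y := hg ▸ F.eqv g hT

theorem cm (hT : T ∈ F.C x) (hS : S ∈ F.C x) (h : T ≠ S) : T ≤ cz S :=
  commutator_eq_bot_iff_le_centralizer.1 (((F.comp hT).eq_or_commutator (F.comp hS)).resolve_left h)

theorem cm' (hT : T ∈ F.C x) (hS : S ∈ F.C y) (h : T ≠ S) (h1 : ∀ a ∈ T, a • y = y)
    (h2 : ∀ a ∈ S, a • x = x) : T ≤ cz S :=
  commutator_eq_bot_iff_le_centralizer.1 ((((F.comp hT).mono (le_inf (F.comp hT).le h1)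
    inf_le_left).eq_or_commutator ((F.comp hS).mono (le_inf h2 (F.comp hS).le)
    inf_le_right)).resolve_left h)

theorem other (hT : T ∈ F.C x) : ∃ S ∈ F.C x, S ≠ T := by
  obtain ⟨A, hA, B, hB, h⟩ := F.two x
  by_cases e : A = T
  exacts [⟨B, hB, e ▸ h.symm⟩, ⟨A, hA, e⟩]

theorem disj (hT : T ∈ F.C x) (hS : S ∈ F.C x) (h : T ≠ S) (ha : a ∈ T) (ha' : a ∈ S) : a = 1 :=
  (F.sn hS).cen ha' (F.cm hT hS h ha)

theorem eq_of_not_cz (hT : T ∈ F.C x) (hS : S ∈ F.C x) (ha : a ∈ T) (h : a ∉ cz S) : T = S := by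
  by_contra e
  exact h (F.cm hT hS e ha)

theorem not_cz (hT : T ∈ F.C x) (ha : a ∈ T) (a1 : a ≠ 1) : a ∉ cz T := fun h =>
  a1 ((F.sn hT).cen ha h)

theorem moves (hT : T ∈ F.C x) : ∃ a ∈ T, ∃ w : Ω, a • w ≠ w := by
  obtain ⟨a, ha, a1⟩ := (F.sn hT).exists_ne_one
  by_contra hn
  push Not at hn
  exact a1 (F.fa a (hn a ha))

theorem exists_moves (h : x ≠ y) : ∃ T ∈ F.C x, ∃ a ∈ T, a • y ≠ y := by
  obtain ⟨T, hT, -⟩ := F.two x
  obtain ⟨a, ha, w, hw⟩ := F.moves hT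
  obtain ⟨g, g1, rfl⟩ := F.tr (x := x) (y := w) (fun e => hw (e ▸ F.fix hT ha)) h
  exact ⟨_, F.eqv' hT g1, _, conj_mem_cj.2 ha, by simpa [mul_smul] using hw⟩

/-- The product of the components at a point. -/
def N (x : Ω) : Subgroup G := sSup (F.C x)

theorem le_N (hT : T ∈ F.C x) : T ≤ F.N x := le_sSup hT

theorem N_cj (hn : n ∈ F.N x) (hT : T ∈ F.C x) : cj n T = T := by
  refine cj_eq_iff.2 ((sSup_le fun S hS => ?_ : F.N x ≤ normalizer (T : Set G)) hn)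
  by_cases e : S = T
  exacts [e ▸ le_normalizer, (F.cm hS hT e).trans (centralizer_le_normalizer _)]

theorem N_fix (hn : n ∈ F.N x) : n • x = x :=
  (sSup_le fun _ hS => (F.comp hS).le : F.N x ≤ stabilizer G x) hn

theorem conj_N (hn : n ∈ F.N x) (g : G) : g * n * g⁻¹ ∈ F.N (g • x) := by
  have : F.N x ≤ cj g⁻¹ (F.N (g • x)) := sSup_le fun S hS => by
    rw [← cj_le_cj (g := g), cj_cj_inv]
    exact F.le_N (F.eqv g hS)
  simpa [mem_cj] using this hn

theorem cj_N (hg : g • x = x) : cj g (F.N x) = F.N x :=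
  le_antisymm (fun n hn => by
    simpa [mul_assoc, hg] using F.conj_N (mem_cj.1 hn) g) fun n hn => mem_cj.2 (by
    simpa [inv_smul_eq_iff.2 hg.symm] using F.conj_N hn g⁻¹)

theorem proj (hn : n ∈ F.N x) (hT : T ∈ F.C x) : ∃ c ∈ cz T, ∃ u ∈ T, n = c * u := by
  refine mem_sup_cz le_rfl ((sSup_le fun S hS => ?_ : F.N x ≤ T ⊔ cz T) hn)
  by_cases e : S = T
  exacts [e ▸ le_sup_left, (F.cm hS hT e).trans le_sup_right]

variable [Finite G]

theorem N_cen (hn : n ∈ F.N x) (h : ∀ T ∈ F.C x, n ∈ cz T) : n = 1 := by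
  have key : ∀ s : Set (Subgroup G), s ⊆ F.C x → ∀ n ∈ sSup s, (∀ T ∈ s, n ∈ cz T) → n = 1 := by
    intro s
    induction s, Set.toFinite s using Set.Finite.induction_on with
    | empty => intro _ n hn _; simpa using hn
    | @insert T s hT _ ih =>
      intro hs n hn h
      have hT' := hs (Set.mem_insert _ _)
      have hs' := (Set.subset_insert _ _).trans hs
      have h1 : sSup s ≤ cz T := sSup_le fun S hS => F.cm (hs' hS) hT' fun e => hT (e ▸ hS)
      rw [sSup_insert] at hn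
      obtain ⟨c, hc, u, hu, rfl⟩ := mem_sup_cz h1 hn
      obtain rfl := (F.sn hT').cen hu ((mul_mem_cz_iff' (h1 hc)).1 (h T (Set.mem_insert _ _)))
      exact ih hs' _ (by simpa using hc) fun S hS => h S (Set.mem_insert_of_mem _ hS)
  exact key _ subset_rfl n hn h

theorem ncard_cj (g : G) (s : Set (Subgroup G)) : (cj g '' s).ncard = s.ncard :=
  Set.ncard_image_of_injective _ fun _ _ => cj_inj.1

/-- A component belongs to only one point. -/
theorem uniq (hT : T ∈ F.C x) (hT' : T ∈ F.C y) : x = y := by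
  have le : ∀ {x y x' y'}, x ≠ y → x' ≠ y' → (F.C x ∩ F.C y).ncard ≤ (F.C x' ∩ F.C y').ncard :=
    fun h h' => by
      obtain ⟨g, rfl, rfl⟩ := F.tr h h'
      rw [← ncard_cj g]
      refine Set.ncard_le_ncard ?_
      rintro _ ⟨S, hS, rfl⟩
      exact ⟨F.eqv g hS.1, F.eqv g hS.2⟩
  by_contra hxy
  obtain ⟨a, ha, w, hw⟩ := F.moves hT
  have hTw : T ∉ F.C w := fun h => hw (F.fix h ha)
  have key : ∀ z, T ∈ F.C z → F.C z ∩ F.C w = F.C w ∩ F.C (a • w) := fun z hz =>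
    Set.eq_of_subset_of_ncard_le (fun R hR => ⟨hR.2, by
      rw [← cj_of_cz (F.cm hz hR.1 (fun e => hTw (e ▸ hR.2)) ha)]
      exact F.eqv a hR.2⟩) (le hw.symm fun e => hTw (e ▸ hz))
  have h1 := le hxy (show x ≠ w from fun e => hTw (e ▸ hT))
  have h2 := Set.ncard_le_ncard (show insert T (F.C x ∩ F.C w) ⊆ F.C x ∩ F.C y by
    rintro R (rfl | hR)
    · exact ⟨hT, hT'⟩
    · exact ⟨hR.1, ((key y hT').symm ▸ key x hT ▸ hR : R ∈ F.C y ∩ F.C w).1⟩)
  rw [Set.ncard_insert_of_notMem fun h => hTw h.2] at h2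
  omega

theorem fix_of_cj (hT : T ∈ F.C x) (h : cj g T = T) : g • x = x := F.uniq (h ▸ F.eqv g hT) hT

theorem ne_of_ne (hT : T ∈ F.C x) (hS : S ∈ F.C y) (h : x ≠ y) : T ≠ S := fun e =>
  h (F.uniq hT (e ▸ hS))

end Fam

end Cfsg.Agent.H7.ON
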