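import Cfsg.Agent.H7.ON.Fam

/-!
# Some involution of a component fixes a second point
-/

set_option autoImplicit false

namespace Cfsg.Agent.H7.ON

open Subgroup H5 Asch MulAction

variable {G Ω : Type*} [Group G] [MulAction G Ω]

namespace Fam

variable (F : Fam G Ω)

/-- The involutions of the components at `x`. -/
def J (x : Ω) (j : G) : Prop := j ≠ 1 ∧ j * j = 1 ∧ ∃ T ∈ F.C x, j ∈ T

/-- The components at `x` not centralized by `z`. -/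
def supp (x : Ω) (z : G) : Set (Subgroup G) := {T | T ∈ F.C x ∧ z ∉ cz T}

variable {F} {x y w p : Ω} {T T' S : Subgroup G} {a b c g j u v z : G}

theorem J.conj (h : F.J x j) (g : G) : F.J (g • x) (g * j * g⁻¹) := by
  obtain ⟨h1, h2, T, hT, hj⟩ := h
  exact ⟨Cj.ne_one ⟨g, rfl⟩ h1, conj_mul_self_eq_one h2 g, _, F.eqv g hT, conj_mem_cj.2 hj⟩

theorem J.fix (h : F.J x j) : j • x = x := by
  obtain ⟨-, -, T, hT, hj⟩ := h
  exact F.fix hT hj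

theorem supp_mul (hT : T ∈ F.C x) (hc : c ∈ cz T) (hu : u ∈ T) (u1 : u ≠ 1) :
    F.supp x (c * u) = insert T (F.supp x c) ∧ T ∉ F.supp x c := by
  refine ⟨Set.ext fun R => ?_, fun h => h.2 hc⟩
  by_cases e : R = T
  · subst e
    exact iff_of_true ⟨hT, fun h => F.not_cz hT hu u1 ((mul_mem_cz_iff' hc).1 h)⟩ (Or.inl rfl)
  · rw [Set.mem_insert_iff, or_iff_right e]
    exact and_congr_right fun hR => not_congr (mul_mem_cz_iff (F.cm hT hR (Ne.symm e) hu))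

theorem supp_conj (g : G) : F.supp (g • x) (g * z * g⁻¹) = cj g '' F.supp x z := by
  ext R
  constructor
  · rintro ⟨h1, h2⟩
    refine ⟨cj g⁻¹ R, ⟨by simpa using F.eqv g⁻¹ h1, fun h => h2 ?_⟩, cj_cj_inv⟩
    rw [← cj_cj_inv (g := g) (T := R)]
    exact conj_mem_cz_cj.2 h
  · rintro ⟨R, ⟨h1, h2⟩, rfl⟩
    exact ⟨F.eqv g h1, fun h => h2 (conj_mem_cz_cj.1 h)⟩

section HI

variable (hI : ∀ {x j y}, F.J x j → j • y = y → x = y)
include hI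

theorem J_fix_of_comm (h : F.J x j) (hg : j * g = g * j) : g • x = x :=
  (hI h (smul_eq_of_comm hg h.fix)).symm

theorem two_supp (hT : T ∈ F.C x) (hT' : T' ∈ F.C x) (h : T ≠ T') (h1 : a ∉ cz T) (h2 : a ∉ cz T')
    (hx : a • x = x) : ¬ F.J p a := fun hj => by
  obtain rfl := hI hj hx
  obtain ⟨-, -, R, hR, ha⟩ := hj
  exact h ((F.eq_of_not_cz hR hT ha h1).symm.trans (F.eq_of_not_cz hR hT' ha h2))

theorem not_J_mul (hT : T ∈ F.C x) (hT' : T' ∈ F.C x) (h : T ≠ T') (ha : a ∈ T) (hb : b ∈ T')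
    (a1 : a ≠ 1) (b1 : b ≠ 1) : ¬ F.J p (a * b) :=
  two_supp hI hT hT' h (fun e => F.not_cz hT ha a1 ((mul_mem_cz_iff (F.cm hT' hT h.symm hb)).1 e))
    (fun e => F.not_cz hT' hb b1 ((mul_mem_cz_iff' (F.cm hT hT' h ha)).1 e))
    (by rw [mul_smul, F.fix hT' hb, F.fix hT ha])

theorem eq_or_of_J (hT : T ∈ F.C x) (hT' : T' ∈ F.C x) (h : T ≠ T') (ha : a ∈ T) (hb : b ∈ T')
    (a1 : a ≠ 1) (b1 : b ≠ 1) (hv : F.J x v) (hj : F.J p (a * b * v)) : v = a ∨ v = b := by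
  obtain ⟨-, v2, R, hR, hvR⟩ := hv
  have k : ∀ {a : G}, a * v = 1 → v = a := fun e => mul_right_cancel (v2.trans e.symm)
  by_cases e : R = T
  · subst e
    rw [mul_assoc, ← mem_cz.1 (F.cm hT' hT h.symm hb) v hvR, ← mul_assoc] at hj
    exact Or.inl (k (by_contra fun e => not_J_mul hI hT hT' h (R.mul_mem ha hvR) hb e b1 hj))
  by_cases e' : R = T'
  · subst e'
    rw [mul_assoc] at hj
    exact Or.inr (k (by_contra fun e => not_J_mul hI hT hT' h ha (R.mul_mem hb hvR) a1 e hj))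
  refine absurd hj (two_supp hI hT hT' h (fun e1 => F.not_cz hT ha a1 ?_)
    (fun e1 => F.not_cz hT' hb b1 ?_) (by rw [mul_smul, mul_smul, F.fix hR hvR, F.fix hT' hb, F.fix hT ha]))
  · exact (mul_mem_cz_iff (F.cm hT' hT h.symm hb)).1 ((mul_mem_cz_iff (F.cm hR hT e hvR)).1 e1)
  · exact (mul_mem_cz_iff' (F.cm hT hT' h ha)).1 ((mul_mem_cz_iff (F.cm hR hT' e' hvR)).1 e1)

variable [Finite G]

theorem no_two {S' : Subgroup G} {u' s s' : G} (hxw : x ≠ w) (hT : T ∈ F.C w) (hT' : T' ∈ F.C w)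
    (h : T ≠ T') (hu : u ∈ T) (hu' : u' ∈ T') (u1 : u ≠ 1) (u2 : u * u = 1) (u3 : u' ≠ 1)
    (u4 : u' * u' = 1) (hS : S ∈ F.C x) (hS' : S' ∈ F.C x) (h' : S ≠ S') (hs : s ∈ S) (hs' : s' ∈ S')
    (s1 : s ≠ 1) (s2 : s * s = 1) (s3 : s' ≠ 1) (s4 : s' * s' = 1) (e : u * u' = s * s') : False := by
  obtain ⟨r, hr, r1, r2, r3, r4⟩ := (F.sn hS).four hs s1 s2
  have c1 := mem_cz.1 (F.cm hT' hT h.symm hu') u hu
  have c2 := mem_cz.1 (F.cm hS' hS h'.symm hs') r hr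
  have sr : s * r ≠ 1 := fun e => r3 (mul_left_cancel (e.trans s2.symm))
  have jsr : F.J x (s * r) := ⟨sr, by
    rw [mul_assoc, ← mul_assoc r, ← r4, mul_assoc, r2, mul_one, s2], S, hS, S.mul_mem hs hr⟩
  have ju : F.J w u := ⟨u1, u2, T, hT, hu⟩
  have ju' : F.J w u' := ⟨u3, u4, T', hT', hu'⟩
  have jr : F.J x r := ⟨r1, r2, S, hS, hr⟩
  have nj : ∀ p, ¬ F.J p (s * s' * r) := fun p => by
    rw [mul_assoc, ← c2, ← mul_assoc]
    exact not_J_mul hI hS hS' h' (S.mul_mem hs hr) hs' sr s3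
  have mk : ∀ {g}, g ∈ centralizer ({u * u'} : Set G) → g * u * g⁻¹ = g * u * g⁻¹ →
      u * u' * (g * u * g⁻¹) = g * u' * g⁻¹ := fun {g} hg _ => by
    rw [← conj_eq_iff_comm.2 (mem_centralizer_singleton_iff.1 hg)]
    calc _ = g * (u * u' * u) * g⁻¹ := by group
      _ = _ := by rw [mul_assoc u, ← c1, ← mul_assoc u, u2, one_mul]
  rcases dih (H := centralizer {u * u'}) u2 r2 (mem_centralizer_singleton_iff.2 (by
      rw [mul_assoc, ← c1])) (mem_centralizer_singleton_iff.2 (by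
      rw [e, ← mul_assoc, ← r4, mul_assoc, c2, mul_assoc])) with
    ⟨g, hg, e1⟩ | ⟨z, -, z1, z2, z3, z4, ⟨⟨g, hg, e1⟩, k, -, e2⟩ | ⟨-, g, hg, e1⟩⟩
  · have := mk (inv_mem hg) rfl
    rw [show g⁻¹ * u * g⁻¹⁻¹ = r by rw [← e1]; group, e] at this
    exact nj _ (this ▸ ju'.conj g⁻¹)
  · have j1 := e1 ▸ ju.conj g
    obtain e3 := hI j1 (by rw [mul_smul, ju.fix, J_fix_of_comm hI ju z3.symm])
    rw [e3] at j1
    rcases eq_or_of_J hI hT hT' h hu hu' u1 u3 j1 (e1 ▸ mk hg rfl ▸ ju'.conj g) with e4 | e4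
    · exact z1 (by simpa using e4)
    · rw [eq_mul_inv_of_mul_eq e4, inv_eq_of_mul_eq_one_left u2, ← c1, e] at e2
      exact nj _ (e2 ▸ jr.conj k)
  · have j1 := e1 ▸ ju.conj g
    obtain e3 := hI j1 (by rw [mul_smul, jr.fix, J_fix_of_comm hI jr z4.symm])
    rw [e3] at j1
    have zw := J_fix_of_comm hI ju z3.symm
    refine hxw (hI jsr ?_)
    rcases eq_or_of_J hI hS hS' h' hs hs' s1 s3 j1 (e ▸ e1 ▸ mk hg rfl ▸ ju'.conj g) with e4 | e4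
    · rwa [← e4, mul_assoc, r2, mul_one]
    · have : s * r = u * u' * z := by
        rw [e, eq_mul_inv_of_mul_eq e4, inv_eq_of_mul_eq_one_left r2, mul_assoc, ← mul_assoc s', s4, one_mul]
      rw [this, mul_smul, mul_smul, zw, ju'.fix, ju.fix]

theorem conj_J {H : Subgroup G} {s : G} (hxw : x ≠ w) (hs : F.J x s) (hu : F.J w u) (sH : s ∈ H)
    (uH : u ∈ H) : ∃ g ∈ H, g * s * g⁻¹ = u := by
  refine (dih hu.2.1 hs.2.1 uH sH).resolve_right ?_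
  rintro ⟨z, -, z1, z2, z3, z4, h⟩
  have zw := J_fix_of_comm hI hu z3.symm
  have zx := J_fix_of_comm hI hs z4.symm
  obtain ⟨⟨p, j1⟩, q, j2⟩ : (∃ p, F.J p (z * u)) ∧ ∃ p, F.J p (z * s) := by
    rcases h with ⟨⟨g, -, e1⟩, k, -, e2⟩ | ⟨⟨g, -, e1⟩, k, -, e2⟩
    exacts [⟨⟨_, e1 ▸ hu.conj g⟩, _, e2 ▸ hs.conj k⟩, ⟨⟨_, e1 ▸ hs.conj g⟩, _, e2 ▸ hu.conj k⟩]
  obtain rfl := hI j1 (by rw [mul_smul, hu.fix, zw])
  obtain rfl := hI j2 (by rw [mul_smul, hs.fix, zx])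
  obtain ⟨a1, a2, T, hT, a3⟩ := j1
  obtain ⟨b1, b2, S, hS, b3⟩ := j2
  obtain ⟨c1, c2, T', hT', c3⟩ := hu
  obtain ⟨d1, d2, S', hS', d3⟩ := hs
  refine no_two hI hxw hT hT' ?_ a3 c3 a1 a2 c1 c2 hS hS' ?_ b3 d3 b1 b2 d1 d2
    (by rw [mul_assoc, mul_assoc, c2, d2])
  · rintro rfl
    exact hxw (hI ⟨z1, z2, T, hT, (T.mul_mem_cancel_right c3).1 a3⟩ zx).symm
  · rintro rfl
    exact hxw (hI ⟨z1, z2, S, hS, (S.mul_mem_cancel_right d3).1 b3⟩ zw)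

omit hI in
theorem proj_inv (hz : z ∈ F.N w) (z2 : z * z = 1) (hT : T ∈ F.supp w z) :
    ∃ c ∈ cz T, ∃ u ∈ T, z = c * u ∧ u ≠ 1 ∧ u * u = 1 ∧ c * c = 1 ∧ c ∈ F.N w := by
  obtain ⟨c, hc, u, hu, rfl⟩ := F.proj hz hT.1
  have e : c * c * (u * u) = 1 := by
    rw [← z2, mul_assoc, mul_assoc, ← mul_assoc u c, mem_cz.1 hc u hu, mul_assoc]
  have u2 := (F.sn hT.1).cen (T.mul_mem hu hu) ((mul_mem_cz_iff' (mul_mem hc hc)).1 (e ▸ one_mem _))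
  exact ⟨c, hc, u, hu, rfl, fun e => hT.2 (by simpa [e] using hc), u2, by simpa [u2] using e,
    ((F.N w).mul_mem_cancel_right (F.le_N hT.1 hu)).1 hz⟩

section Low

variable {m : ℕ} (hm : ∀ {w z x}, z ∈ F.N w → z ≠ 1 → z * z = 1 → (F.supp w z).ncard < m →
    z • x = x → w = x) (hz : z ∈ F.N w) (z1 : z ≠ 1) (z2 : z * z = 1) (hl : (F.supp w z).ncard = m)
include hm hz z1 z2 hl

theorem low_cj (hx : z • x = x) (hxw : x ≠ w) (hS : S ∈ F.C x) : cj z S ≠ S := fun hn => by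
  obtain ⟨s, hs, s1, s2, s3⟩ := exists_inv_comm z2 hn (F.sn hS).even
  obtain ⟨T, hT⟩ : ∃ T, T ∈ F.supp w z := by
    by_contra h
    exact z1 (F.N_cen hz fun T hT => by_contra fun h' => h ⟨T, hT, h'⟩)
  obtain ⟨c, hc, u, hu, rfl, u1, u2, c2, cN⟩ := proj_inv hz z2 hT
  have c1 : c ≠ 1 := fun e => hxw (hI ⟨u1, u2, T, hT.1, hu⟩ (by simpa [e] using hx)).symm
  obtain ⟨r, hr, r1, r2, r3, r4⟩ := (F.sn hT.1).four hu u1 u2
  have ur : u * r ≠ 1 := fun e => r3 (mul_left_cancel (e.trans u2.symm))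
  obtain ⟨g, hg, e1⟩ := conj_J hI (H := centralizer {c * u}) hxw ⟨s1, s2, S, hS, hs⟩
    ⟨u1, u2, T, hT.1, hu⟩ (mem_centralizer_singleton_iff.2 s3.symm)
    (mem_centralizer_singleton_iff.2 (by rw [← mul_assoc, mem_cz.1 hc u hu]))
  obtain ⟨k, hk, e2⟩ := conj_J hI (H := centralizer {c * u}) hxw ⟨s1, s2, S, hS, hs⟩
    ⟨r1, r2, T, hT.1, hr⟩ (mem_centralizer_singleton_iff.2 s3.symm)
    (mem_centralizer_singleton_iff.2 (by rw [← mul_assoc, mem_cz.1 hc r hr, mul_assoc, ← r4, mul_assoc]))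
  have e3 : g * k⁻¹ * (c * (u * r)) * (g * k⁻¹)⁻¹ = c := by
    calc _ = g * k⁻¹ * (c * u) * (g * k⁻¹)⁻¹ * (g * (k⁻¹ * r * k) * g⁻¹) := by group
      _ = c * u * (g * s * g⁻¹) := by
        rw [conj_eq_iff_comm.2 (mem_centralizer_singleton_iff.1 (mul_mem hg (inv_mem hk))), ← e2]
        group
      _ = c := by rw [e1, mul_assoc, u2, mul_one]
  obtain ⟨k1, k2⟩ := supp_mul hT.1 hc hu u1
  have k3 := (supp_mul hT.1 hc (T.mul_mem hu hr) ur).1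
  rw [k1, Set.ncard_insert_of_notMem k2] at hl
  have k4 := hm (x := (g * k⁻¹) • w) cN c1 c2 (by omega) (by
    nth_rewrite 1 [← e3]
    rw [conj_smul_smul, mul_smul c, F.fix hT.1 (T.mul_mem hu hr), F.N_fix cN])
  have k5 := congrArg Set.ncard (supp_conj (F := F) (x := w) (z := c * (u * r)) (g * k⁻¹))
  rw [ncard_cj, e3, ← k4, k3, Set.ncard_insert_of_notMem k2] at k5
  omega

theorem low_fix (hg : z * g = g * z) : g • w = w := by
  by_contra h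
  obtain ⟨S, hS, -⟩ := F.two (g • w)
  have := F.conj_N hz g
  rw [conj_eq_iff_comm.2 hg.symm] at this
  exact low_cj hI hm hz z1 z2 hl (F.N_fix this) h hS (F.N_cj this hS)

theorem low_step (hx : z • x = x) : w = x := by
  by_contra hxw
  obtain ⟨S, hS, -⟩ := F.two x
  have hS' := F.eqv' hS hx
  have hne := low_cj hI hm hz z1 z2 hl hx (Ne.symm hxw) hS
  have zi : z⁻¹ = z := inv_eq_of_mul_eq_one_left z2
  have c1 : ∀ a ∈ S, ∀ b ∈ S, a * (z * b * z⁻¹) = z * b * z⁻¹ * a := fun a ha b hb =>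
    mem_cz.1 (F.cm hS' hS hne (conj_mem_cj.2 hb)) a ha
  have c2 : ∀ a ∈ S, z * (a * (z * a * z⁻¹)) = a * (z * a * z⁻¹) * z := fun a ha => by
    nth_rewrite 1 [c1 a ha a ha]
    simp only [zi, ← mul_assoc, z2, one_mul]
    simp only [mul_assoc, z2, mul_one]
  have c3 : ∀ a ∈ S, ∀ b ∈ S, a * b * (z * (a * b) * z⁻¹) = a * (z * a * z⁻¹) * (b * (z * b * z⁻¹)) :=
    fun a ha b hb => by
      calc _ = a * (b * (z * a * z⁻¹)) * (z * b * z⁻¹) := by group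
        _ = _ := by rw [c1 b hb a ha]; group
  have c4 : ∀ a ∈ S, a ≠ 1 → a * a = 1 → a * (z * a * z⁻¹) ∈ F.N x ∧ a * (z * a * z⁻¹) ≠ 1 ∧
      a * (z * a * z⁻¹) * (a * (z * a * z⁻¹)) = 1 ∧ (F.supp x (a * (z * a * z⁻¹))).ncard = 2 :=
    fun a ha a1 a2 => by
      have hb := conj_mem_cj (g := z).2 ha
      have b1 : z * a * z⁻¹ ≠ 1 := Cj.ne_one ⟨z, rfl⟩ a1
      obtain ⟨k1, k2⟩ := supp_mul hS' (F.cm hS hS' hne.symm ha) hb b1
      obtain ⟨k3, k4⟩ := supp_mul (c := 1) hS (one_mem _) ha a1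
      have k5 : F.supp x 1 = ∅ := Set.eq_empty_of_forall_notMem fun _ h => h.2 (one_mem _)
      rw [one_mul, k5] at k3
      refine ⟨mul_mem (F.le_N hS ha) (F.le_N hS' hb), fun e => a1 (F.disj hS hS' hne.symm ha
        (by simpa [← eq_inv_of_mul_eq_one_left e] using inv_mem hb)), by rw [← c3 a ha a ha, a2]; simp, ?_⟩
      rw [k1, Set.ncard_insert_of_notMem k2, k3]
      simp
  have c5 : ∀ a ∈ S, (a * (z * a * z⁻¹)) • w = w := fun a ha => low_fix hI hm hz z1 z2 hl (c2 a ha)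
  obtain ⟨a, ha, a1, a2⟩ := (F.sn hS).exists_inv
  obtain ⟨b, hb, b1, b2, b3, b4⟩ := (F.sn hS).four ha a1 a2
  have m2 : m ≤ 2 := by
    by_contra h
    obtain ⟨k1, k2, k3, k4⟩ := c4 a ha a1 a2
    exact hxw (hm k1 k2 k3 (by omega) (c5 a ha)).symm
  obtain ⟨T, hT⟩ : ∃ T, T ∈ F.supp w z := by
    by_contra h
    exact z1 (F.N_cen hz fun T hT => by_contra fun h' => h ⟨T, hT, h'⟩)
  obtain ⟨c, hc, u, hu, e, u1, u2, -, cN⟩ := proj_inv hz z2 hT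
  have ju : F.J w u := ⟨u1, u2, T, hT.1, hu⟩
  obtain ⟨k1, k2⟩ := supp_mul hT.1 hc hu u1
  rw [← e] at k1
  have hl' := hl
  rw [k1, Set.ncard_insert_of_notMem k2] at hl'
  rcases m2.eq_or_lt with rfl | m1
  swap
  · have : F.supp w c = ∅ := (Set.ncard_eq_zero (Set.toFinite _)).1 (by omega)
    obtain rfl := F.N_cen cN fun R hR => by_contra fun h => (this ▸ ⟨hR, h⟩ : R ∈ (∅ : Set _))
    exact hxw (hI ju (by rwa [e, one_mul] at hx))
  have c6 : ∀ a ∈ S, a ≠ 1 → a * a = 1 → cj (a * (z * a * z⁻¹)) T ≠ T := fun a ha a1 a2 hn => by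
    obtain ⟨k1, k2, k3, k4⟩ := c4 a ha a1 a2
    have k5 := c2 a ha
    generalize a * (z * a * z⁻¹) = r at hn k1 k2 k3 k4 k5
    have h1 := conj_mem_of_cj hn hu
    have h2 : r * c * r⁻¹ ∈ cz T := hn ▸ conj_mem_cz_cj.2 hc
    have h3 : r * u * r⁻¹ * u⁻¹ = (r * c * r⁻¹)⁻¹ * c := by
      calc _ = (r * c * r⁻¹)⁻¹ * (r * (c * u) * r⁻¹) * u⁻¹ := by group
        _ = _ := by rw [← e, conj_eq_iff_comm.2 k5.symm, e]; group
    have h4 := (F.sn hT.1).cen (mul_mem h1 (inv_mem hu)) (h3 ▸ mul_mem (inv_mem h2) hc)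
    exact hxw (hI ju (low_fix hI hm k1 k2 k3 k4 (conj_eq_iff_comm.1 (mul_inv_eq_one.1 h4))))
  obtain ⟨T', hT'⟩ := Set.ncard_eq_one.1 (show (F.supp w c).ncard = 1 by omega)
  have c7 : ∀ a ∈ S, a ≠ 1 → a * a = 1 → cj (a * (z * a * z⁻¹)) T = T' := fun a ha a1 a2 => by
    have := supp_conj (F := F) (x := w) (z := z) (a * (z * a * z⁻¹))
    rw [c5 a ha, conj_eq_iff_comm.2 (c2 a ha).symm] at this
    have h2 : cj (a * (z * a * z⁻¹)) T ∈ F.supp w z := this ▸ Set.mem_image_of_mem _ hT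
    rw [k1, hT'] at h2
    exact h2.resolve_left (c6 a ha a1 a2)
  have ab : a * b ≠ 1 := fun e => b3 (mul_left_cancel (e.trans a2.symm))
  refine c6 _ (S.mul_mem ha hb) ab (by rw [mul_assoc, ← mul_assoc b, ← b4, mul_assoc, b2, mul_one, a2]) ?_
  rw [c3 a ha b hb, ← cj_cj, c7 b hb b1 b2, ← c7 a ha a1 a2, cj_cj, (c4 a ha a1 a2).2.2.1, cj_one]

end Low

theorem N_fix_only (hz : z ∈ F.N w) (z1 : z ≠ 1) (z2 : z * z = 1) (hx : z • x = x) : w = x := by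
  generalize hl : (F.supp w z).ncard = m
  induction m using Nat.strong_induction_on generalizing w z x with
  | _ m ih => exact low_step hI (fun h1 h2 h3 h4 h5 => ih _ h4 h1 h2 h3 h5 rfl) hz z1 z2 hl hx

theorem conj_N_inv {s : G} (hxw : x ≠ w) (hz : z ∈ F.N w) (z1 : z ≠ 1) (z2 : z * z = 1)
    (hs : s ∈ F.N x) (s1 : s ≠ 1) (s2 : s * s = 1) : ∃ g : G, g * s * g⁻¹ = z := by
  rcases dih (H := ⊤) z2 s2 trivial trivial with ⟨g, -, h⟩ | ⟨c, -, c1, c2, c3, c4, h⟩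
  · exact ⟨g, h⟩
  have cw := (N_fix_only hI hz z1 z2 (smul_eq_of_comm c3.symm (F.N_fix hz))).symm
  have cx := (N_fix_only hI hs s1 s2 (smul_eq_of_comm c4.symm (F.N_fix hs))).symm
  obtain ⟨p, h1, h2, h3⟩ : ∃ p, c * z ∈ F.N p ∧ c * z ≠ 1 ∧ c * z * (c * z) = 1 := by
    rcases h with ⟨⟨g, -, e⟩, -⟩ | ⟨⟨g, -, e⟩, -⟩
    · exact ⟨_, e ▸ F.conj_N hz g, Cj.ne_one ⟨g, e⟩ z1, e ▸ conj_mul_self_eq_one z2 g⟩
    · exact ⟨_, e ▸ F.conj_N hs g, Cj.ne_one ⟨g, e⟩ s1, e ▸ conj_mul_self_eq_one s2 g⟩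
  obtain rfl := N_fix_only hI h1 h2 h3 (by rw [mul_smul, F.N_fix hz, cw])
  exact absurd (N_fix_only hI (((F.N p).mul_mem_cancel_right hz).1 h1) c1 c2 cx).symm hxw

end HI

/-- Some involution of a component fixes a second point. -/
theorem exists_J [Finite G] (F : Fam G Ω) (x : Ω) : ∃ x j y, F.J x j ∧ j • y = y ∧ x ≠ y := by
  by_contra hn
  have hI : ∀ {x j y}, F.J x j → j • y = y → x = y := fun h1 h2 => by_contra fun h => hn ⟨_, _, _, h1, h2, h⟩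
  obtain ⟨T, hT, T', hT', h⟩ := F.two x
  obtain ⟨a, ha, w, hw⟩ := F.moves hT
  have hxw : w ≠ x := fun e => hw (e ▸ F.fix hT ha)
  obtain ⟨S, hS, -⟩ := F.two w
  obtain ⟨s, hs, s1, s2⟩ := (F.sn hS).exists_inv
  obtain ⟨t, ht, t1, t2⟩ := (F.sn hT).exists_inv
  obtain ⟨u, hu, u1, u2⟩ := (F.sn hT').exists_inv
  obtain ⟨g, e⟩ := conj_N_inv hI hxw (mul_mem (F.le_N hT ht) (F.le_N hT' hu))
    (fun e => t1 (F.disj hT hT' h ht (by simpa [← eq_inv_of_mul_eq_one_left e] using inv_mem hu)))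
    (by rw [mul_assoc, ← mul_assoc u, mem_cz.1 (F.cm hT hT' h ht) u hu, mul_assoc, u2, mul_one, t2])
    (F.le_N hS hs) s1 s2
  exact not_J_mul hI hT hT' h ht hu t1 u1 (e ▸ J.conj ⟨s1, s2, S, hS, hs⟩ g)

end Fam

end Cfsg.Agent.H7.ON
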