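import Cfsg.Agent.H7.ON.CaseO2
import Cfsg.Agent.H7.MinNormal
import Cfsg.Agent.H7.Primitive
import Cfsg.Agent.H8.FT

/-!
# O'Nan's theorem on point stabilizers of doubly transitive groups
-/

set_option autoImplicit false

namespace Cfsg.Agent.H7.ON

open Subgroup H5 Asch MulAction

variable {G Ω : Type*} [Group G] [MulAction G Ω] [Finite G]

theorem SN.of_compIn {T H : Subgroup G} (h : CompIn T H) (hF : fittingIn H = ⊥) : SN T := by
  refine ⟨fun K hK a ha haK a1 => ?_, fun h' => h.commutator_self_ne_bot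
    (commutator_eq_bot_iff_le_centralizer.2 h'), Nat.not_odd_iff_even.1 fun ho =>
    h.not_isSolvable (H9.FT.feitThompson T ho)⟩
  have := h.isSimpleGroup hF
  have hn : (K.subgroupOf T).Normal := ⟨fun b hb g => conj_mem_of_cj (T := K) (hK g g.2) hb⟩
  rcases hn.eq_bot_or_eq_top with e | e
  · exact absurd (congrArg Subtype.val (mem_bot.1 (e ▸ haK : (⟨a, ha⟩ : T) ∈ ⊥))) a1
  · exact subgroupOf_eq_top.1 e

variable [FaithfulSMul G Ω] [Finite Ω]

/-- A point stabilizer with trivial Fitting subgroup has at most one component. -/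
theorem comp_unique (h2 : IsMultiplyPretransitive G Ω 2) (a : Ω)
    (hF : fittingIn (stabilizer G a) = ⊥) {A B : Subgroup G} (hA : CompIn A (stabilizer G a))
    (hB : CompIn B (stabilizer G a)) : A = B := by
  by_contra hAB
  have := isPretransitive_of_is_two_pretransitive (h2 := h2)
  have mk : ∀ s : Set (Subgroup G), (∀ T ∈ s, CompIn T (stabilizer G a)) →
      (∃ g : G, g • a = a ∧ ∃ T ∈ s, ∃ S ∈ s, cj g T ≠ S) →
      ∃ F : Fam G Ω, ∀ x T, T ∈ F.C x ↔ ∃ g : G, g • a = x ∧ ∃ T0 ∈ s, cj g T0 = T := by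
    rintro s hs ⟨k, hk, T, hT, S, hS, hne⟩
    refine ⟨⟨fun x => {T | ∃ g : G, g • a = x ∧ ∃ T0 ∈ s, cj g T0 = T}, ?_, ?_, ?_, fun x => ?_,
      fun h h' => is_two_pretransitive_iff.1 h2 h h', fun g hg => eq_of_smul_eq_smul (α := Ω)
        fun x => by rw [hg, one_smul]⟩, fun _ _ => Iff.rfl⟩
    · rintro _ _ ⟨g, rfl, T, hT, rfl⟩
      exact (SN.of_compIn (hs T hT) hF).conj g
    · rintro _ _ ⟨g, rfl, T, hT, rfl⟩
      exact stabilizer_smul_eq g a ▸ (hs T hT).smul g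
    · rintro _ _ g ⟨l, rfl, T, hT, rfl⟩
      exact ⟨g * l, mul_smul _ _ _, T, hT, cj_cj.symm⟩
    · obtain ⟨g, rfl⟩ := exists_smul_eq G a x
      exact ⟨_, ⟨g * k, by rw [mul_smul, hk], T, hT, rfl⟩, _, ⟨g, rfl, S, hS, rfl⟩,
        fun e => hne (cj_inj.1 (cj_cj.trans e))⟩
  have hn : ∀ {T}, CompIn T (stabilizer G a) → ∀ g : G, g • a = a → cj g T = T := fun {T} hT g hg => by
    by_contra hne
    obtain ⟨F, hC⟩ := mk {T} (fun _ h => h ▸ hT) ⟨g, hg, T, rfl, T, rfl, hne⟩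
    refine F.caseO (fun h1 h2 => ?_) a
    obtain ⟨k, -, _, rfl, rfl⟩ := (hC _ _).1 h1
    obtain ⟨l, -, _, rfl, rfl⟩ := (hC _ _).1 h2
    exact ⟨l * k⁻¹, by rw [cj_cj, inv_mul_cancel_right]⟩
  obtain ⟨F, hC⟩ := mk {A, B} (by rintro _ (rfl | rfl); exacts [hA, hB])
    ⟨1, one_smul _ _, A, Or.inl rfl, B, Or.inr rfl, by rwa [cj_one]⟩
  choose γ hγ using fun x => exists_smul_eq G a x
  have hw : ∀ {T}, CompIn T (stabilizer G a) → ∀ (g : G) x, g • a = x → cj g T = cj (γ x) T :=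
    fun hT g x hg => by
      rw [← cj_inj (g := (γ x)⁻¹), cj_inv_cj, cj_cj]
      exact hn hT _ (by rw [mul_smul, hg, inv_smul_eq_iff, hγ])
  have he : ∀ {T}, CompIn T (stabilizer G a) → ∀ (g : G) x, cj g (cj (γ x) T) = cj (γ (g • x)) T :=
    fun hT g x => cj_cj.trans (hw hT _ _ (by rw [mul_smul, hγ]))
  refine F.caseN (A := fun x => cj (γ x) A) (B := fun x => cj (γ x) B)
    (fun x => (hC _ _).2 ⟨_, hγ x, A, Or.inl rfl, rfl⟩) (he hA)
    (fun x => (hC _ _).2 ⟨_, hγ x, B, Or.inr rfl, rfl⟩) (he hB) (fun x e => hAB (cj_inj.1 e))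
    (fun x T hT => ?_) a
  obtain ⟨g, hg, _, rfl | rfl, rfl⟩ := (hC _ _).1 hT
  exacts [Or.inl (hw hA g x hg), Or.inr (hw hB g x hg)]

end Cfsg.Agent.H7.ON
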