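import Cfsg.Agent.H7.ON.Inv

/-!
# The case of trivially intersecting components
-/

set_option autoImplicit false

namespace Cfsg.Agent.H7.ON

open Subgroup H5 Asch MulAction

variable {G Ω : Type*} [Group G] [MulAction G Ω]

theorem even_of_inv {H : Subgroup G} {a : G} (ha : a ∈ H) (a1 : a ≠ 1) (a2 : a * a = 1) :
    Even (Nat.card H) :=
  even_iff_two_dvd.2 (orderOf_eq_two_iff'.2 ⟨a1, a2⟩ ▸ H.orderOf_dvd_natCard ha)

theorem cj_normalizer {T : Subgroup G} {g : G} (h : cj g T = T) :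
    cj g (normalizer (T : Set G)) = normalizer (T : Set G) := cj_of_mem (cj_eq_iff.1 h)

theorem cj_cz {T : Subgroup G} {g : G} (h : cj g T = T) : cj g (cz T) = cz T :=
  cj_eq_iff.2 (normalizer_le_normalizer_centralizer T (cj_eq_iff.1 h))

theorem SN.diag {S K : Subgroup G} (hS : SN S) {f : G → G}
    (hf : ∀ a ∈ S, ∀ b ∈ S, f (a * b) = f a * f b) (hK : ∀ a ∈ S, cj (f a) K = K) {s : G} (hs : s ∈ S)
    (s1 : s ≠ 1) (h : f s ∈ K) : ∀ a ∈ S, f a ∈ K := by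
  let φ : S →* G := MonoidHom.mk' (fun a => f a) fun a b => hf a a.2 b b.2
  have hn : (K.comap φ).Normal := ⟨fun a ha g => by
    rw [mem_comap, map_mul, map_mul, map_inv]
    exact conj_mem_of_cj (hK g g.2) ha⟩
  rcases hS.simple.eq_bot_or_eq_top_of_normal _ hn with e | e
  · exact absurd (congrArg Subtype.val (mem_bot.1 (e ▸ h : (⟨s, hs⟩ : S) ∈ ⊥))) s1
  · exact fun a ha => (e ▸ mem_top _ : (⟨a, ha⟩ : S) ∈ K.comap φ)

theorem SN.cz_of_comm [Finite G] {T : Subgroup G} (hT : SN T) {e : G} (hn : cj e T = T)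
    (h : ∀ g ∈ T, e * (g * e * g⁻¹) = g * e * g⁻¹ * e) : e ∈ cz T := by
  have key : ∀ g ∈ T, g * e * g⁻¹ ∈ centralizer ((fun g => g * e * g⁻¹) '' (T : Set G)) := by
    rintro g hg _ ⟨k, hk, rfl⟩
    simpa [mul_assoc] using comm_conj (g := k) (h _ (T.mul_mem (T.inv_mem hk) hg))
  refine mem_cz.2 fun g hg => ?_
  by_contra hne
  refine hne (hT.norm _ (fun k hk => cj_eq_iff.2 (mem_normalizer_of_conj_mem ?_))
    (g * e * g⁻¹ * e⁻¹) (by simpa [mul_assoc] using T.mul_mem hg (conj_mem_of_cj hn (T.inv_mem hg)))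
    (mul_mem (key g hg) (inv_mem (by simpa using key 1 T.one_mem)))
    (fun e => hne (conj_eq_iff_comm.1 (mul_inv_eq_one.1 e))) hg e ⟨1, T.one_mem, by simp⟩).symm
  rintro a ha _ ⟨l, hl, rfl⟩
  simpa [mul_assoc] using comm_conj (g := k) (ha _ ⟨_, T.mul_mem (T.inv_mem hk) hl, rfl⟩)

namespace Fam

variable {F : Fam G Ω} {x y w : Ω} {T T' S V R : Subgroup G} {a b c g h r s t u v : G}

section diag

variable (hT : T ∈ F.C x) (s2 : s * s = 1) (hx : s • x = x) (hne : cj s T ≠ T)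
include hT hx hne

theorem dg_comm (ha : a ∈ T) (hb : b ∈ T) : a * (s * b * s⁻¹) = s * b * s⁻¹ * a :=
  mem_cz.1 (F.cm (F.eqv' hT hx) hT hne (conj_mem_cj.2 hb)) a ha

theorem dg_mul (ha : a ∈ T) (hb : b ∈ T) :
    a * b * (s * (a * b) * s⁻¹) = a * (s * a * s⁻¹) * (b * (s * b * s⁻¹)) := by
  calc _ = a * (b * (s * a * s⁻¹)) * (s * b * s⁻¹) := by group
    _ = _ := by rw [dg_comm hT hx hne hb ha]; group

theorem dg_N (ha : a ∈ T) : a * (s * a * s⁻¹) ∈ F.N x :=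
  mul_mem (F.le_N hT ha) (F.le_N (F.eqv' hT hx) (conj_mem_cj.2 ha))

include s2

theorem dg_cen (ha : a ∈ T) : s * (a * (s * a * s⁻¹)) = a * (s * a * s⁻¹) * s := by
  nth_rewrite 1 [dg_comm hT hx hne ha ha]
  simp only [inv_eq_of_mul_eq_one_left s2, ← mul_assoc, s2, one_mul]
  simp only [mul_assoc, s2, mul_one]

theorem dg_sw (hb : b • x = x) (h : ∀ a ∈ T, b * (a * (s * a * s⁻¹)) = a * (s * a * s⁻¹) * b) :
    b ∈ cz T ∨ s * b ∈ cz T := by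
  have hS := F.eqv' hT hx
  have key : ∀ b, cj b T = T → (∀ a ∈ T, b * (a * (s * a * s⁻¹)) = a * (s * a * s⁻¹) * b) →
      b ∈ cz T := fun b hn h => mem_cz.2 fun a ha => by
    have h0 := F.cm hS hT hne (conj_mem_cj.2 ha)
    have h2 : b * (s * a * s⁻¹) * b⁻¹ ∈ cz T := hn ▸ conj_mem_cz_cj.2 h0
    have h3 : a⁻¹ * (b * a * b⁻¹) = s * a * s⁻¹ * (b * (s * a * s⁻¹) * b⁻¹)⁻¹ := by
      calc _ = a⁻¹ * (b * (a * (s * a * s⁻¹)) * b⁻¹) * (b * (s * a * s⁻¹) * b⁻¹)⁻¹ := by group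
        _ = _ := by rw [h a ha]; group
    exact (conj_eq_iff_comm.1 (inv_mul_eq_one.1 ((F.sn hT).cen (mul_mem (inv_mem ha)
      (conj_mem_of_cj hn ha)) (h3 ▸ mul_mem h0 (inv_mem h2)))).symm).symm
  by_cases e : cj b T = T
  · exact Or.inl (key b e h)
  refine Or.inr (key _ ?_ fun a ha => by rw [mul_assoc, h a ha, ← mul_assoc, dg_cen hT s2 hx hne ha, mul_assoc])
  obtain ⟨a, ha, a1⟩ := (F.sn hT).exists_ne_one
  have hb' := F.eqv' hT hb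
  have : cj s T = cj b T := by
    refine F.eq_of_not_cz hS hb' (conj_mem_cj.2 ha) fun hc => F.not_cz hT ha a1 ?_
    have h1 := mul_mem (F.cm hT hb' (Ne.symm e) ha) hc
    rw [← conj_eq_iff_comm.2 (h a ha), conj_mem_cz_cj] at h1
    exact (mul_mem_cz_iff (F.cm hS hT hne (conj_mem_cj.2 ha))).1 h1
  rw [← cj_cj, ← this, cj_cj, s2, cj_one]

end diag

section TI

variable (hI : ∀ {x y T S a}, T ∈ F.C x → S ∈ F.C y → a ∈ T → a ∈ S → a ≠ 1 → T = S)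
include hI

theorem ti_cj (hT : T ∈ F.C x) (ha : a ∈ T) (a1 : a ≠ 1) (h : g * a = a * g) : cj g T = T :=
  hI (F.eqv g hT) hT (conj_eq_iff_comm.2 h ▸ conj_mem_cj.2 ha) ha a1

theorem ti_comm (hT : T ∈ F.C x) (hS : S ∈ F.C y) (h : T ≠ S) (ha : a ∈ T) (hb : b ∈ S)
    (h1 : cj a S = S) (h2 : cj b T = T) : a * b = b * a := by
  by_contra hne
  exact h (hI hT hS (by simpa [mul_assoc] using T.mul_mem ha (conj_mem_of_cj h2 (T.inv_mem ha)))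
    (S.mul_mem (conj_mem_of_cj h1 hb) (S.inv_mem hb)) fun e => hne (conj_eq_iff_comm.1 (mul_inv_eq_one.1 e)))

variable [Finite G]

theorem ti_symm (hT : T ∈ F.C x) (hS : S ∈ F.C y) (ht : t ∈ T) (t1 : t ≠ 1) (t2 : t * t = 1)
    (h : cj t S = S) : ∃ s ∈ S, s ≠ 1 ∧ s * s = 1 ∧ cj s T = T := by
  obtain ⟨s, hs, s1, s2, s3⟩ := exists_inv_comm t2 h (F.sn hS).even
  exact ⟨s, hs, s1, s2, ti_cj hI hT ht t1 s3.symm⟩

theorem ti_adj (x : Ω) : ∃ x y, x ≠ y ∧ ∃ T ∈ F.C x, ∃ S ∈ F.C y, ∃ t ∈ T, t ≠ 1 ∧ t * t = 1 ∧ cj t S = S := by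
  obtain ⟨x, t, y, ⟨t1, t2, T, hT, ht⟩, ty, hxy⟩ := F.exists_J x
  by_contra hn
  obtain ⟨g, g1, g2⟩ := F.tr hxy hxy.symm
  have hS := F.eqv' hT g1
  have hs := conj_mem_cj (g := g).2 ht
  have s1 : g * t * g⁻¹ ≠ 1 := Cj.ne_one ⟨g, rfl⟩ t1
  have s2 := conj_mul_self_eq_one t2 g
  have sx : (g * t * g⁻¹) • x = x := by rw [← g2, conj_smul_smul, ty]
  have hc := card_cj (g := g) (T := T)
  generalize g * t * g⁻¹ = s at hs s1 s2 sx
  generalize cj g T = S at hS hs hc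
  have n1 : cj t S ≠ S := fun e => hn ⟨x, y, hxy, T, hT, S, hS, t, ht, t1, t2, e⟩
  have n2 : cj s T ≠ T := fun e => hn ⟨y, x, hxy.symm, S, hS, T, hT, s, hs, s1, s2, e⟩
  have d1 := fun a ha b hb => dg_mul (a := a) (b := b) hS ty n1 ha hb
  have d2 := fun a ha => ti_cj hI hT ht t1 (dg_cen (a := a) hS t2 ty n1 ha).symm
  have e : s * (t * s * t⁻¹) = s * t * s⁻¹ * t := by
    rw [inv_eq_of_mul_eq_one_left s2, inv_eq_of_mul_eq_one_left t2]; simp only [mul_assoc]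
  have d3 := (F.sn hS).diag d1 (fun a ha => F.cj_N (F.fix_of_cj hT (d2 a ha))) hs s1
    (e ▸ mul_mem (F.le_N (F.eqv' hT sx) (conj_mem_cj.2 ht)) (F.le_N hT ht))
  have d4 : ∀ a ∈ S, a * (t * a * t⁻¹) ∈ cz T → a = 1 := fun a ha h => by_contra fun a1 =>
    F.not_cz hT ht t1 ((mul_mem_cz_iff' (F.cm (F.eqv' hT sx) hT n2 (conj_mem_cj.2 ht))).1
      (e ▸ (F.sn hS).diag d1 (fun a ha => cj_eq_iff.2 (normalizer_le_normalizer_centralizer T
        (cj_eq_iff.1 (d2 a ha)))) ha a1 h s hs))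
  have hc' := hc
  choose! c hc u hu hcu using fun a ha => F.proj (d3 a ha) hT
  have h1 : Nat.card S ≤ Nat.card ↥(centralizer {t} ⊓ T) := by
    refine Nat.card_le_card_of_injective (fun a => ⟨u a, mem_centralizer_singleton_iff.2 ?_, hu a a.2⟩)
      fun a b hab => Subtype.ext ?_
    · have := (dg_cen hS t2 ty n1 a.2).symm
      rw [hcu a a.2, ← mul_assoc, mem_cz.1 (hc a a.2) t ht, mul_assoc, mul_assoc] at this
      exact mul_left_cancel this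
    · have hab : u a = u b := congrArg Subtype.val hab
      refine mul_inv_eq_one.1 (d4 _ (S.mul_mem a.2 (S.inv_mem b.2)) ?_)
      have := d1 _ (S.mul_mem a.2 (S.inv_mem b.2)) _ b.2
      rw [inv_mul_cancel_right, hcu a a.2, hcu b b.2, hab, ← mul_assoc, mul_left_inj] at this
      exact (mul_mem_cz_iff (hc b b.2)).1 (this ▸ hc a a.2)
  have h2 := eq_of_le_of_card_ge (inf_le_right : centralizer {t} ⊓ T ≤ T) (hc' ▸ h1)
  exact F.not_cz hT ht t1 (mem_cz.2 fun a ha => mem_centralizer_singleton_iff.1 (h2.ge ha).1)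

theorem ti_R (hT : T ∈ F.C x) (hS : S ∈ F.C y) (hxy : x ≠ y) (ht : t ∈ T) (t1 : t ≠ 1) (t2 : t * t = 1)
    (h : cj t S = S) (ha : a ∈ T) (hay : a • y ≠ y) (hb : b ∈ S) (hbT : cj b T = T) (hV : V ∈ F.C x) :
    cj b V = V := by
  have hTS := F.ne_of_ne hT hS hxy
  have k1 : ∀ v ∈ cz T, cj v S = S → ∀ b ∈ S, cj b T = T → v * b = b * v := fun v hv h1 b hb h2 => by
    by_contra hne
    refine hay (F.fix_of_cj hS (ti_cj hI hS (S.mul_mem (conj_mem_of_cj h1 hb) (S.inv_mem hb))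
      (fun e => hne (conj_eq_iff_comm.1 (mul_inv_eq_one.1 e))) (mem_cz.1 ?_ a ha)))
    have : b * v⁻¹ * b⁻¹ ∈ cz T := h2 ▸ conj_mem_cz_cj (g := b).2 (inv_mem hv)
    simpa [mul_assoc] using mul_mem hv this
  by_cases hVT : V = T
  · rwa [hVT]
  obtain ⟨s, hs, s1, s2, s3⟩ := ti_symm hI hT hS ht t1 t2 h
  have k2 : cj s V = V := by
    by_contra hne
    have sx := F.fix_of_cj hT s3
    have hV' := F.cm (F.eqv' hV sx) hT fun e => hVT (cj_inj.1 (e.trans s3.symm))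
    have k3 : ∀ b ∈ S, cj b T = T → b ∈ cz V → b = 1 := fun b hb h1 h2 => by_contra fun b1 =>
      hne (cj_of_cz (mem_cz.2 fun v hv => k1 v (F.cm hV hT hVT hv)
        (ti_cj hI hS hb b1 (mem_cz.1 h2 v hv)) s hs s3))
    refine (F.sn hS).not_two t2 h (s := s) fun b hb hc => ?_
    have h1 := ti_cj hI hT ht t1 hc.symm
    refine (dg_sw hV s2 sx hne (F.fix_of_cj hT h1) fun v hv => (k1 _ (mul_mem (F.cm hV hT hVT hv)
      (hV' (conj_mem_cj.2 hv))) (ti_cj hI hS hs s1 (dg_cen hV s2 sx hne hv).symm) b hb h1).symm).imp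
      (k3 b hb h1) fun h2 => ?_
    exact mul_left_cancel ((k3 _ (S.mul_mem hs hb) (cj_mul_of_cj s3 h1) h2).trans s2.symm)
  obtain ⟨v, hv, v1, -, v3⟩ := ti_symm hI hS hV hs s1 s2 k2
  exact ti_cj hI hV hv v1 (k1 v (F.cm hV hT hVT hv) v3 b hb hbT).symm

theorem ti_alpha (x : Ω) (hα : ∀ {x y T}, T ∈ F.C x → x ≠ y → ∃ a ∈ T, a • y ≠ y) : False := by
  obtain ⟨x, y, hxy, T0, hT0, S0, hS0, t0, ht0, k1, k2, k3⟩ := ti_adj hI x
  have hR : ∀ {x y T S t b V}, T ∈ F.C x → S ∈ F.C y → x ≠ y → t ∈ T → t ≠ 1 → t * t = 1 →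
      cj t S = S → b ∈ S → cj b T = T → V ∈ F.C x → cj b V = V := fun hT hS hxy ht t1 t2 h hb hbT hV => by
    obtain ⟨a, ha, hay⟩ := hα hT hxy
    exact ti_R hI hT hS hxy ht t1 t2 h ha hay hb hbT hV
  have adj0 : ∀ T ∈ F.C x, ∀ S ∈ F.C y, ∃ t ∈ T, t ≠ 1 ∧ t * t = 1 ∧ cj t S = S := fun T hT S hS => by
    obtain ⟨s, hs, s1, s2, s3⟩ := ti_symm hI hT0 hS0 ht0 k1 k2 k3
    have s4 := hR hT0 hS0 hxy ht0 k1 k2 k3 hs s3 hT
    obtain ⟨t, ht, t1, t2, t3⟩ := ti_symm hI hS0 hT hs s1 s2 s4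
    exact ⟨t, ht, t1, t2, hR hS0 hT hxy.symm hs s1 s2 s4 ht t3 hS⟩
  have adj : ∀ {x y T S}, x ≠ y → T ∈ F.C x → S ∈ F.C y → ∃ t ∈ T, t ≠ 1 ∧ t * t = 1 ∧ cj t S = S :=
    fun h hT hS => by
      obtain ⟨g, g1, g2⟩ := F.tr h hxy
      obtain ⟨t, ht, t1, t2, t3⟩ := adj0 _ (F.eqv' hT g1) _ (F.eqv' hS g2)
      refine ⟨_, mem_cj.1 ht, Cj.ne_one ⟨g⁻¹, by simp⟩ t1, by simpa using conj_mul_self_eq_one t2 g⁻¹, ?_⟩
      rw [← cj_cj, ← cj_cj, t3, cj_inv_cj]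
  have all : ∀ {x y T S b V}, x ≠ y → T ∈ F.C x → S ∈ F.C y → b ∈ S → cj b T = T → V ∈ F.C x →
      cj b V = V := fun hxy hT hS hb hbT hV => by
    obtain ⟨t, ht, t1, t2, t3⟩ := adj hxy hT hS
    exact hR hT hS hxy ht t1 t2 t3 hb hbT hV
  obtain ⟨T, hT, T', hT', hTT⟩ := F.two x
  have key : ∀ {y S g e}, x ≠ y → S ∈ F.C y → g ∈ T' → g • y ≠ y → e ∈ S → cj e T' = T' →
      ∀ V ∈ F.C (g • y), cj e V = V := fun {y S g e} hxy hS hg hgy he heT V hV => by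
    have hxy' : x ≠ g • y := fun e => hxy ((smul_left_cancel_iff g).1 ((F.fix hT' hg).trans e))
    obtain ⟨S', hS', hSS⟩ := F.other hS
    obtain ⟨t, ht, t1, t2, t3⟩ := adj hxy hT hS
    have tg := mem_cz.1 (F.cm hT' hT hTT.symm hg) t ht
    have t4 : ∀ V ∈ F.C y, cj t V = V := fun V hV => all hxy.symm hS hT ht t3 hV
    have t5 : ∀ V ∈ F.C y, cj t (cj g V) = cj g V := fun V hV => by rw [cj_cj, tg, ← cj_cj, t4 V hV]
    have ex : ∀ {y y' A B}, y ≠ y' → A ∈ F.C y → B ∈ F.C y' → cj t A = A → cj t B = B →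
        ∃ b ∈ A, b ≠ 1 ∧ cj b B = B ∧ cj b T = T := fun {y y' A B} h hA hB h1 h2 => by
      obtain ⟨a, ha, a1, a2, a3⟩ := adj h hA hB
      obtain ⟨b, hb, b1, -, b3⟩ := exists_inv_comm (H := A ⊓ normalizer (B : Set G)) t2
        (by rw [cj_inf, h1, cj_normalizer h2])
        (even_of_inv ⟨ha, cj_eq_iff.1 a3⟩ a1 a2)
      exact ⟨b, hb.1, b1, cj_eq_iff.2 hb.2, ti_cj hI hT ht t1 b3.symm⟩
    have hgS' := F.eqv g hS'
    obtain ⟨b, hb, b1, b2, b3⟩ := ex hgy.symm hS hgS' (t4 _ hS) (t5 _ hS')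
    obtain ⟨b', hb', c1, c2, c3⟩ := ex hgy hgS' hS (t5 _ hS') (t4 _ hS)
    have h0 := mem_cj.1 hb'
    have c4 := all hxy' hT hgS' hb' c3 hT'
    have c5 : cj (g⁻¹ * b' * g) T' = T' :=
      cj_mul_of_cj (cj_mul_of_cj (cj_of_mem (T'.inv_mem hg)) c4) (cj_of_mem hg)
    have hτ : (g⁻¹ * b' * g)⁻¹ * b' ∈ T' := by
      simpa [mul_assoc] using T'.mul_mem (T'.inv_mem hg) (conj_mem_of_cj (cj_inv_of_cj c4) hg)
    have cS : ∀ a ∈ S, Commute a (g⁻¹ * b' * g) := fun a ha => mem_cz.1 (F.cm hS' hS hSS h0) a ha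
    have c6 : Commute b b' := ti_comm hI hS hgS' (F.ne_of_ne hS hgS' hgy.symm) hb hb' b2 c2
    have c7 := ti_cj hI hS hb b1 ((cS b hb).inv_right.mul_right c6).symm
    have c8 : Commute e ((g⁻¹ * b' * g)⁻¹ * b') :=
      (ti_comm hI hT' hS (F.ne_of_ne hT' hS hxy) hτ he c7 heT).symm
    have c9 := (cS e he).mul_right c8
    rw [mul_inv_cancel_left] at c9
    exact all hgy hgS' hS he (ti_cj hI hgS' hb' c1 c9) hV
  obtain ⟨e, he, e1, -, e3⟩ := adj hxy.symm hS0 hT'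
  obtain ⟨a, ha, hay⟩ := hα hT' hxy
  refine hay (F.fix_of_cj hS0 (ti_cj hI hS0 he e1 (mem_cz.1 ((F.sn hT').cz_of_comm e3 fun g hg => ?_) a ha)))
  have hgS := F.eqv g hS0
  have he' := conj_mem_cj (g := g).2 he
  by_cases hgy : g • y = y
  · by_cases h : cj g S0 = S0
    · rw [conj_eq_iff_comm.2 (ti_comm hI hT' hS0 (F.ne_of_ne hT' hS0 hxy) hg he h e3)]
    · exact mem_cz.1 (F.cm (hgy ▸ hgS) hS0 h he') e he
  have hxy' : x ≠ g • y := fun e => hxy ((smul_left_cancel_iff g).1 ((F.fix hT' hg).trans e))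
  refine ti_comm hI hS0 hgS (F.ne_of_ne hS0 hgS (Ne.symm hgy)) he he' (key hxy hS0 hg hgy he e3 _ hgS)
    (key hxy' hgS (T'.inv_mem hg) (by simpa using Ne.symm hgy) he' ?_ _ (by simpa using hS0))
  exact cj_mul_of_cj (cj_mul_of_cj (cj_of_mem hg) e3) (cj_of_mem (T'.inv_mem hg))

theorem ti_norm (hT : T ∈ F.C x) (hxy : x ≠ y) (hy : ∀ a ∈ T, a • y = y) (hV : V ∈ F.C y) (ha : a ∈ T) :
    cj a V = V := by
  refine cj_eq_iff.2 ((F.sn hT).le_of_inv (fun t ht t2 => cj_eq_iff.1 ?_) ha)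
  by_contra hne
  have t1 : t ≠ 1 := fun e => hne (e ▸ cj_one)
  have k1 : ∀ v ∈ F.N y, cj v T = T → ∀ a ∈ T, a * v = v * a := fun v hv h a ha => by
    by_contra h1
    refine hne (F.N_cj ((F.sn hT).norm _ (fun g hg => F.cj_N (hy g hg)) (a * v * a⁻¹ * v⁻¹) ?_
      (mul_mem (hy a ha ▸ F.conj_N hv a) (inv_mem hv))
      (fun e => h1 (conj_eq_iff_comm.1 (mul_inv_eq_one.1 e))) ht) hV)
    simpa [mul_assoc] using T.mul_mem ha (conj_mem_of_cj h (T.inv_mem ha))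
  have k2 : ∀ u ∈ T, u ∈ cz V → u = 1 := fun u hu hc => by_contra fun u1 =>
    hne (cj_of_cz (mem_cz.2 fun v hv => (k1 v (F.le_N hV hv) (ti_cj hI hT hu u1 (mem_cz.1 hc v hv)) t ht).symm))
  obtain ⟨u, hu, u1, -, u3, -⟩ := (F.sn hT).four ht t1 t2
  rcases dg_sw hV t2 (hy t ht) hne (hy u hu) (fun v hv => k1 _ (dg_N hV (hy t ht) hne hv)
    (ti_cj hI hT ht t1 (dg_cen hV t2 (hy t ht) hne hv).symm) u hu) with h | h
  · exact u1 (k2 u hu h)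
  · exact u3 (mul_left_cancel ((k2 _ (T.mul_mem ht hu) h).trans t2.symm))

theorem ti_zs (hT : T ∈ F.C x) (hV : V ∈ F.C y) (hn : ∀ a ∈ T, cj a V = V) (hv : v ∈ V) (hvx : v • x ≠ x)
    (hr : r ∈ T) (r1 : r ≠ 1) (r2 : r * r = 1) : ∃ g ∈ V, ∃ h ∈ V, h ≠ 1 ∧ h * h = 1 ∧ h ∈ cz T ∧
      g * r * g⁻¹ = r * h ∧ cj g T ≠ T := by
  have hTV : T ≠ V := fun e => hvx (F.fix hT (e ▸ hv))
  obtain ⟨g, hg, h1, h2⟩ := (F.sn hV).zs r2 (hn r hr) fun hc =>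
    hvx (F.fix_of_cj hT (ti_cj hI hT hr r1 (mem_cz.1 hc v hv)))
  have hh : r * (g * r * g⁻¹) ∈ V := by
    simpa [mul_assoc, inv_eq_of_mul_eq_one_left r2] using V.mul_mem (conj_mem_of_cj (hn r hr) hg) (V.inv_mem hg)
  refine ⟨g, hg, _, hh, fun e => h1 (mul_left_cancel (e.trans r2.symm)), ?_, mem_cz.2 fun a ha =>
    ti_comm hI hT hV hTV ha hh (hn a ha) (cj_mul_of_cj (cj_of_mem hr) (ti_cj hI hT hr r1 h2.symm)),
    by rw [← mul_assoc r, r2, one_mul], fun e => h1 (conj_eq_iff_comm.2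
      (ti_comm hI hT hV hTV hr hg (hn r hr) e).symm)⟩
  rw [mul_assoc, ← mul_assoc _ r, ← h2, mul_assoc r, conj_mul_self_eq_one r2, mul_one, r2]

theorem ti_ab (hT : T ∈ F.C x) (hxy : x ≠ y) (hy : ∀ a ∈ T, a • y = y) (hr : r ∈ T) (r1 : r ≠ 1)
    (r2 : r * r = 1) (ha : a ∈ T) (hb : b ∈ T) (ra : Commute a r) (rb : Commute b r) : Commute a b := by
  obtain ⟨V, hV, v, hv, hvx⟩ := F.exists_moves hxy.symm
  have hn := fun a ha => ti_norm hI (a := a) hT hxy hy hV ha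
  obtain ⟨g, hg, h, hh, -, -, hc, e, hne⟩ := ti_zs hI hT hV hn hv hvx hr r1 r2
  have hT' := F.eqv g hT
  have hr' := conj_mem_cj (g := g).2 hr
  have hb' := conj_mem_cj (g := g).2 hb
  have hn' : ∀ a ∈ T, cj (g * a * g⁻¹) V = V := fun a ha =>
    cj_mul_of_cj (cj_mul_of_cj (cj_of_mem hg) (hn a ha)) (cj_of_mem (V.inv_mem hg))
  have k1 : cj a (cj g T) = cj g T := ti_cj hI hT' hr' (Cj.ne_one ⟨g, rfl⟩ r1)
    (e ▸ ra.mul_right (mem_cz.1 hc a ha))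
  have k2 : cj h (cj g T) = cj g T := ti_cj hI hT' hr' (Cj.ne_one ⟨g, rfl⟩ r1)
    (e ▸ (Commute.symm (mem_cz.1 hc r hr)).mul_right rfl)
  have k3 : Commute (g * b * g⁻¹) h := ti_comm hI hT' hV (fun e' => hne ?_) hb' hh (hn' b hb) k2
  swap
  · exact absurd (cj_inj.1 (e'.trans (cj_of_mem hg).symm) ▸ hv) fun h => hvx (F.fix hT h)
  have k4 : Commute (g * b * g⁻¹) (r * h) := e ▸ comm_conj rb
  have k5 : cj (g * b * g⁻¹) T = T := ti_cj hI hT hr r1 (by simpa using (k4.mul_right k3.inv_right).eq)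
  have k6 : Commute a (g * b * g⁻¹) := ti_comm hI hT hT' (Ne.symm hne) ha hb' k1 k5
  have k7 : Commute a (b⁻¹ * (g * b * g⁻¹)) := ti_comm hI hT hV (fun e => hvx (F.fix hT (e ▸ hv))) ha
    (by simpa [mul_assoc] using V.mul_mem (conj_mem_of_cj (hn _ (T.inv_mem hb)) hg) (V.inv_mem hg))
    (hn a ha) (cj_mul_of_cj (cj_of_mem (T.inv_mem hb)) k5)
  simpa [mul_assoc] using k6.mul_right k7.inv_right

theorem ti_beta (hT : T ∈ F.C x) (hxy : x ≠ y) (hy : ∀ a ∈ T, a • y = y) : False := by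
  obtain ⟨v, hv, w, hw⟩ := F.moves hT
  have hwx : w ≠ x := fun e => hw (e ▸ F.fix hT hv)
  obtain ⟨k, k1, k2⟩ := F.tr hxy hwx
  have hR := F.eqv' hT k1
  have hx : ∀ a ∈ cj k T, a • x = x := fun a ha => by
    rw [← k2, ← inv_smul_eq_iff, ← mul_smul, ← mul_smul, hy _ (mem_cj.1 ha)]
  generalize cj k T = R at hR hx
  have hn := fun a ha => ti_norm hI (a := a) hR hwx hx hT ha
  obtain ⟨r, hr, r1, r2⟩ := (F.sn hR).exists_inv
  obtain ⟨g, hg, h, hh, h1, h2, hc, e, hne⟩ := ti_zs hI hR hT hn hv hw hr r1 r2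
  have hRT := F.ne_of_ne hR hT hwx
  have ab := fun a b ha hb => ti_ab hI (a := a) (b := b) hT hxy hy hh h1 h2 ha hb
  have cA : ∀ a ∈ T, Commute a h → ∀ ρ ∈ R, ρ * a * ρ⁻¹ ∈ T ∧ Commute (ρ * a * ρ⁻¹) h :=
    fun a ha ah ρ hρ => ⟨conj_mem_of_cj (hn ρ hρ) ha, by
      have : Commute ρ h := mem_cz.1 hc ρ hρ
      exact (this.mul_left ah).mul_left this.inv_left⟩
  have k3 : ∀ a ∈ T, Commute a h → ∀ ρ ∈ R, ρ ≠ 1 → ρ * ρ = 1 → a * (ρ * a * ρ⁻¹) ∈ cz R :=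
    fun a ha ah ρ hρ ρ1 ρ2 => by
      obtain ⟨c1, c2⟩ := cA a ha ah ρ hρ
      refine mem_cz.2 fun b hb => ti_comm hI hR hT hRT hb (T.mul_mem ha c1) (hn b hb)
        (ti_cj hI hR hρ ρ1 ?_)
      nth_rewrite 2 [(ab _ _ ha c1 ah c2).eq]
      simp only [inv_eq_of_mul_eq_one_left ρ2, ← mul_assoc, ρ2, one_mul]
      simp only [mul_assoc, ρ2, mul_one]
  have k4 : ∀ a ∈ T, Commute a h → a * a ∈ cz R := fun a ha ah => by
    obtain ⟨u, hu, u1, u2, u3, u4⟩ := (F.sn hR).four hr r1 r2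
    have c1 := k3 a ha ah r hr r1 r2
    have c2 : r * (a * (u * a * u⁻¹)) * r⁻¹ ∈ cz R := cj_of_mem hr ▸ conj_mem_cz_cj.2 (k3 a ha ah u hu u1 u2)
    have c3 := k3 a ha ah _ (R.mul_mem hr hu) (fun e => u3 (mul_left_cancel (e.trans r2.symm)))
      (by rw [mul_assoc, ← mul_assoc u, ← u4, mul_assoc, u2, mul_one, r2])
    have c4 := mul_mem (mul_mem c3 (inv_mem c2)) ((ab _ _ ha (cA a ha ah r hr).1 ah (cA a ha ah r hr).2).eq ▸ c1)
    simpa [mul_assoc] using c4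
  have k5 : ∀ a ∈ T, Commute a h → ∀ ρ ∈ R, ρ * ρ = 1 → a * ρ * a⁻¹ * ρ⁻¹ ∈ cz R :=
    fun a ha ah ρ hρ ρ2 => by
      by_cases ρ1 : ρ = 1
      · simp [ρ1]
      have c1 := mul_mem (k4 a ha ah) (inv_mem ((ab _ _ ha (cA a ha ah ρ hρ).1 ah (cA a ha ah ρ hρ).2).eq ▸
        k3 a ha ah ρ hρ ρ1 ρ2))
      simpa [mul_assoc] using c1
  have k6 : ∀ a ∈ T, Commute a h → ∀ ρ ∈ R, cj (a * ρ * a⁻¹) R = R := fun a ha ah ρ hρ =>
    cj_eq_iff.2 (((F.sn hR).conj a).le_of_inv (fun t ht t2 => by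
      have c1 := cj_mul_of_cj (cj_of_cz (k5 a ha ah _ (mem_cj.1 ht)
        (by simpa using conj_mul_self_eq_one t2 a⁻¹))) (cj_of_mem (mem_cj.1 ht))
      exact cj_eq_iff.1 (by simpa [mul_assoc] using c1)) (conj_mem_cj.2 hρ))
  have k7 : ∀ a ∈ T, Commute a h → ∀ ρ ∈ R, Commute ρ a := fun a ha ah ρ hρ => by
    refine ti_comm hI hR hT hRT hρ ha (hn ρ hρ) (by_contra fun hne => F.not_cz hR hr r1 ?_)
    refine (mul_mem_cz_iff' (k5 a ha ah r hr r2)).1 (mem_cz.2 fun b hb => ?_)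
    rw [inv_mul_cancel_right]
    refine ti_comm hI hR (F.eqv a hR) (Ne.symm hne) hb (conj_mem_cj.2 hr) ?_ (k6 a ha ah r hr)
    rw [← cj_inj (g := a⁻¹), cj_inv_cj, cj_cj, cj_cj]
    simpa using k6 _ (T.inv_mem ha) ah.inv_left b hb
  have k8 : cj h (cj g R) = cj g R := ti_cj hI (F.eqv g hR) (conj_mem_cj.2 hr) (Cj.ne_one ⟨g, rfl⟩ r1)
    (e ▸ (Commute.symm (mem_cz.1 hc r hr)).mul_right rfl)
  have k9 : ∀ ρ ∈ R, ρ⁻¹ * (g * ρ * g⁻¹) ∈ T ∧ Commute (ρ⁻¹ * (g * ρ * g⁻¹)) h := fun ρ hρ =>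
    ⟨by simpa [mul_assoc] using T.mul_mem (conj_mem_of_cj (hn _ (R.inv_mem hρ)) hg) (T.inv_mem hg),
      (Commute.inv_left (mem_cz.1 hc ρ hρ)).mul_left (ti_comm hI (F.eqv g hR) hT
        (fun e' => hRT (cj_inj.1 (e'.trans (cj_of_mem hg).symm))) (conj_mem_cj.2 hρ) hh
        (cj_mul_of_cj (cj_mul_of_cj (cj_of_mem hg) (hn ρ hρ)) (cj_of_mem (T.inv_mem hg))) k8)⟩
  have := (F.sn hR).hom_trivial (f := fun ρ => ρ⁻¹ * (g * ρ * g⁻¹)) (fun a ha b hb => by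
    calc _ = b⁻¹ * (a⁻¹ * (g * a * g⁻¹)) * (g * b * g⁻¹) := by group
      _ = _ := by rw [(k7 _ (k9 a ha).1 (k9 a ha).2 _ (R.inv_mem hb)).eq, mul_assoc])
    (fun a ha b hb => ab _ _ (k9 a ha).1 (k9 b hb).1 (k9 a ha).2 (k9 b hb).2) r hr
  exact h1 (by simpa [e] using this)

/-- Some two different components intersect non-trivially. -/
theorem not_ti (x : Ω) : False :=
  ti_alpha hI x fun hT hxy => by_contra fun h => ti_beta hI hT hxy fun a ha => by_contra fun h' => h ⟨a, ha, h'⟩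

end TI

end Fam

end Cfsg.Agent.H7.ON
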